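import Cfsg.Agent.L.Mon.LM
/-!
The maximal totally singular subspace attached to the standard frame.
-/
set_option autoImplicit false
set_option maxHeartbeats 400000
namespace CfsgL.Mon
open Finset Cfsg CfsgL.Leech CfsgL.Golay CfsgL.GU CfsgL.Lat CfsgL.ExtraTwo
open scoped Pointwise

/-- all coordinates divisible by four -/
def N4 (v : leechLattice) : Prop := ∀ i, (4 : ℤ) ∣ v.1 i

theorem N4.add {v w : leechLattice} (hv : N4 v) (hw : N4 w) : N4 (v + w) := fun i => by
  rw [coe_add']; exact dvd_add (hv i) (hw i)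

theorem N4.neg {v : leechLattice} (hv : N4 v) : N4 (-v) := fun i => (dvd_neg).2 (hv i)

theorem N4.exists {v : leechLattice} (hv : N4 v) : ∃ a : GolayPt → ℤ, (∀ i, v.1 i = 4 * a i) ∧ (2 : ℤ) ∣ ∑ i, a i := by
  choose a ha using hv
  refine ⟨a, ha, ?_⟩
  apply leechM.d4'
  have : (fun i => 4 * a i) = v.1 := by funext i; exact (ha i).symm
  rw [this]; exact v.2

theorem N4.norm {v : leechLattice} (hv : N4 v) : (32 : ℤ) ∣ sqNorm v.1 := by
  obtain ⟨a, ha, h2⟩ := hv.exists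
  have h3 := sq_parity a
  have h4 : sqNorm v.1 = 16 * ∑ i, a i ^ 2 := by
    unfold sqNorm
    rw [Finset.mul_sum]
    apply Finset.sum_congr rfl
    intro i _
    rw [ha i]; ring
  rw [h4]
  have h5 : (2 : ℤ) ∣ ∑ i, a i ^ 2 := by
    have := h3.dvd
    have h6 := (dvd_sub_right h2).1 this
    exact h6
  obtain ⟨c, hc⟩ := h5
  rw [hc]
  exact ⟨c, by ring⟩

theorem N4.dot {v w : leechLattice} (hv : N4 v) (hw : N4 w) : (16 : ℤ) ∣ dotInt v.1 w.1 := by
  choose a ha using hv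
  choose c hc using hw
  have h4 : dotInt v.1 w.1 = 16 * ∑ i, a i * c i := by
    unfold dotInt
    rw [Finset.mul_sum]
    apply Finset.sum_congr rfl
    intro i _
    rw [ha i, hc i]; ring
  rw [h4]
  exact ⟨_, rfl⟩

theorem N4_v2 (p q : GolayPt) (s t : ℤ) (hs : s = 4 ∨ s = -4) (ht : t = 4 ∨ t = -4) :
    N4 (w2 p q s t hs ht) := by
  intro i
  change (4 : ℤ) ∣ (Pi.single p s + Pi.single q t : GolayPt → ℤ) i
  rw [Pi.add_apply]
  apply dvd_add
  · by_cases h : i = p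
    · rw [h, Pi.single_eq_same]; rcases hs with h | h <;> rw [h] <;> norm_num
    · rw [Pi.single_eq_of_ne h]; exact dvd_zero _
  · by_cases h : i = q
    · rw [h, Pi.single_eq_same]; rcases ht with h | h <;> rw [h] <;> norm_num
    · rw [Pi.single_eq_of_ne h]; exact dvd_zero _

theorem N4_e8 (p : GolayPt) : N4 (e8 p) := by
  intro i
  by_cases h : i = p
  · rw [h, e8_same]; norm_num
  · rw [e8_ne h]; exact dvd_zero _

/-- even vectors, all coordinates in the same class mod 4 -/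
theorem N4.of_all {v : leechLattice} (h2 : ∀ i, (2 : ℤ) ∣ v.1 i) (h4 : ∀ i j, (4 : ℤ) ∣ v.1 i + v.1 j) :
    ∃ w u, N4 w ∧ v = w + (u + u) := by
  by_cases h : (4 : ℤ) ∣ v.1 none
  · refine ⟨v, 0, ?_, by simp⟩
    intro i
    have := h4 none i
    exact (dvd_add_right h).1 this
  · refine ⟨v - (oddv none + oddv none), oddv none, ?_, by abel⟩
    intro i
    rw [coe_sub', coe_add']
    have h5 := h2 none
    have h6 := h4 none i
    have h7 : (oddv none).1 i = -3 ∨ (oddv none).1 i = 1 := by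
      change (if i = none then (-3 : ℤ) else 1) = -3 ∨ (if i = none then (-3 : ℤ) else 1) = 1
      split_ifs
      · left; rfl
      · right; rfl
    change (4 : ℤ) ∣ v.1 i - ((oddv none).1 i + (oddv none).1 i)
    rcases h7 with h7 | h7 <;> rw [h7] <;> omega

theorem N4.perp {v : leechLattice} (h : ∀ w, N4 w → (16 : ℤ) ∣ dotInt v.1 w.1) :
    ∃ w u, N4 w ∧ v = w + (u + u) := by
  apply N4.of_all
  · intro i
    have := h (e8 i) (N4_e8 i)
    rw [dot_e8] at this
    omega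
  · intro i j
    have := h (w2 i j 4 4 (Or.inl rfl) (Or.inl rfl)) (N4_v2 _ _ _ _ _ _)
    rw [show (w2 i j 4 4 (Or.inl rfl) (Or.inl rfl)).1 = v2 i j 4 4 from rfl, dot_v2] at this
    omega

variable {Q : Type*} [Group Q] {z : Q} {Γ : Subgroup (MulAut Q)} {R : leechLattice → Q → Prop}

namespace LM

/-- the elementary abelian subgroup -/
def En (h : LM z Γ R) : Subgroup Q where
  carrier := {x | ∃ v, N4 v ∧ R v x}
  one_mem' := ⟨0, fun i => dvd_zero _, h.R_zero⟩
  mul_mem' := by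
    rintro x y ⟨v, hv, hx⟩ ⟨w, hw, hy⟩
    exact ⟨v + w, hv.add hw, h.add _ _ _ _ hx hy⟩
  inv_mem' := by
    rintro x ⟨v, hv, hx⟩
    exact ⟨v, hv, h.R_inv hx⟩

theorem mem_En (h : LM z Γ R) {x : Q} : x ∈ h.En ↔ ∃ v, N4 v ∧ R v x := Iff.rfl

theorem z_mem_En (h : LM z Γ R) : z ∈ h.En := ⟨0, fun i => dvd_zero _, h.R_z⟩

theorem cent_En (h : LM z Γ R) : Subgroup.centralizer (h.En : Set Q) = h.En := by
  apply le_antisymm
  · intro x hx
    rw [Subgroup.mem_centralizer_iff] at hx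
    obtain ⟨v, hv⟩ := h.surj x
    obtain ⟨w, u, hw, hvw⟩ := N4.perp (v := v) (by
      intro w hw
      obtain ⟨y, hy⟩ := h.ex w
      rw [← h.comm_iff hv hy]
      exact (hx y ⟨w, hw, hy⟩).symm)
    refine ⟨w, hw, ?_⟩
    have h1 := h.R_shift (w := -u) hv
    rw [hvw] at h1
    have e : w + (u + u) + (-u + -u) = w := by abel
    rwa [e] at h1
  · rintro x ⟨v, hv, hx⟩
    rw [Subgroup.mem_centralizer_iff]
    rintro y ⟨w, hw, hy⟩
    exact (h.comm_iff hy hx).2 (hw.dot hv)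

theorem sq_En (h : LM z Γ R) {x : Q} (hx : x ∈ h.En) : x * x = 1 := by
  obtain ⟨v, hv, hx⟩ := hx
  exact (h.sq_iff hx).2 hv.norm

theorem card_En (h : LM z Γ R) [Finite Q] (hQ : Nat.card Q = 2 ^ 25) : Nat.card h.En = 2 ^ 13 := by
  have h1 := h.dat.count h.mem h.En h.z_mem_En
  rw [h.cent_En, hQ] at h1
  have h2 : Nat.card h.En * Nat.card h.En = 2 ^ 13 * 2 ^ 13 := by rw [← h1]; norm_num
  exact Nat.mul_self_inj.1 h2

end LM

end CfsgL.Mon
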