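import Cfsg.Agent.L.Misc.ExtraTwo
/-!
Double counting in extraspecial-type 2-groups.
-/
set_option autoImplicit false
set_option maxHeartbeats 400000
namespace CfsgL.ExtraTwo
open Finset

variable {Q : Type*} [Group Q] {z : Q}

open Classical in
/-- commutator character -/
noncomputable def chi (x e : Q) : ℤ := if x * e = e * x then 1 else -1

open Classical in
theorem chi_c {x e : Q} (h : x * e = e * x) : chi x e = 1 := if_pos h
open Classical in
theorem chi_n {x e : Q} (h : ¬ x * e = e * x) : chi x e = -1 := if_neg h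

theorem chi_symm (x e : Q) : chi x e = chi e x := by
  by_cases h : x * e = e * x
  · rw [chi_c h, chi_c h.symm]
  · rw [chi_n h, chi_n (sym h)]

theorem Dat.chi_mul (D : Dat Q z) (a b e : Q) : chi (a * b) e = chi a e * chi b e := by
  by_cases ha : a * e = e * a
  · by_cases hb : b * e = e * b
    · rw [chi_c ha, chi_c hb, chi_c (mul_cc ha hb)]; rfl
    · rw [chi_c ha, chi_n hb, chi_n (mul_cn ha hb)]; rfl
  · by_cases hb : b * e = e * b
    · rw [chi_n ha, chi_c hb, chi_n (mul_nc ha hb)]; rfl
    · rw [chi_n ha, chi_n hb, chi_c (D.mul_nn ha hb)]; rfl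

theorem Dat.sum_chi (D : Dat Q z) [Fintype Q] [DecidableEq Q] (E : Subgroup Q) [Fintype E] (e : Q) (he : ∃ x ∈ E, ¬ x * e = e * x) :
    ∑ x : E, chi (x : Q) e = 0 := by
  obtain ⟨x0, h0, hne⟩ := he
  have h1 : ∑ x : E, chi (x : Q) e = ∑ x : E, chi ((⟨x0, h0⟩ * x : E) : Q) e :=
    (Fintype.sum_equiv (Equiv.mulLeft (⟨x0, h0⟩ : E)) _ _ (fun x => rfl)).symm
  have h2 : ∀ x : E, chi ((⟨x0, h0⟩ * x : E) : Q) e = - chi (x : Q) e := by
    intro x
    rw [Subgroup.coe_mul, D.chi_mul]
    rw [chi_n hne]
    ring
  rw [Finset.sum_congr rfl (fun x _ => h2 x), Finset.sum_neg_distrib] at h1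
  omega

/-- the fundamental counting formula `2|Q| = |C_Q(E)| |E|` for `z ∈ E` -/
theorem Dat.count (D : Dat Q z) [Finite Q] (hmem : ∀ a : Q, (∀ b, b * a = a * b) → a = 1 ∨ a = z)
    (E : Subgroup Q) (hz : z ∈ E) :
    2 * Nat.card Q = Nat.card (Subgroup.centralizer (E : Set Q)) * Nat.card E := by
  classical
  haveI := Fintype.ofFinite Q
  haveI : Fintype E := Fintype.ofFinite _
  haveI : Fintype (Subgroup.centralizer (E : Set Q)) := Fintype.ofFinite _
  haveI : Fintype (⊤ : Subgroup Q) := Fintype.ofFinite _
  -- sum over x first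
  have hA : ∑ e : E, ∑ x : Q, chi x (e : Q) = 2 * (Fintype.card Q : ℤ) := by
    have h1 : ∀ e : E, ∑ x : Q, chi x (e : Q) = if (e : Q) = 1 ∨ (e : Q) = z then (Fintype.card Q : ℤ) else 0 := by
      intro e
      split_ifs with h
      · have h2 : ∀ x : Q, chi x (e : Q) = 1 := by
          intro x
          apply chi_c
          rcases h with h | h
          · rw [h, mul_one, one_mul]
          · rw [h, D.cen]
        rw [Finset.sum_congr rfl (fun x _ => h2 x)]
        simp
      · have h2 : ∃ x ∈ (⊤ : Subgroup Q), ¬ x * (e : Q) = e * x := by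
          by_contra hcon
          push Not at hcon
          exact h (hmem _ (fun b => hcon b trivial))
        have h3 := D.sum_chi ⊤ (e : Q) h2
        rw [← h3]
        exact (Fintype.sum_equiv Subgroup.topEquiv.toEquiv _ _ (fun x => rfl)).symm
    rw [Finset.sum_congr rfl (fun e _ => h1 e), ← Finset.sum_filter, Finset.sum_const]
    have h4 : (Finset.univ.filter (fun e : E => (e : Q) = 1 ∨ (e : Q) = z)) = {1, ⟨z, hz⟩} := by
      ext e
      simp only [Finset.mem_filter, Finset.mem_univ, true_and, Finset.mem_insert, Finset.mem_singleton]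
      constructor
      · rintro (h | h)
        · left; exact Subtype.ext h
        · right; exact Subtype.ext h
      · rintro (rfl | rfl)
        · left; rfl
        · right; rfl
    rw [h4, Finset.card_pair]
    · simp
    · intro h
      exact D.ne (congrArg Subtype.val h).symm
  have hB : ∑ x : Q, ∑ e : E, chi x (e : Q) =
      (Fintype.card (Subgroup.centralizer (E : Set Q)) : ℤ) * (Fintype.card E : ℤ) := by
    have h1 : ∀ x : Q, ∑ e : E, chi x (e : Q) =
        if x ∈ Subgroup.centralizer (E : Set Q) then (Fintype.card E : ℤ) else 0 := by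
      intro x
      split_ifs with h
      · rw [Subgroup.mem_centralizer_iff] at h
        have h2 : ∀ e : E, chi x (e : Q) = 1 := fun e => chi_c (h e e.2).symm
        rw [Finset.sum_congr rfl (fun e _ => h2 e)]
        simp
      · have h2 : ∃ e ∈ E, ¬ e * x = x * e := by
          by_contra hcon
          push Not at hcon
          exact h (Subgroup.mem_centralizer_iff.2 (fun e he => hcon e he))
        rw [← D.sum_chi E x h2]
        exact Finset.sum_congr rfl (fun e _ => chi_symm _ _)
    rw [Finset.sum_congr rfl (fun x _ => h1 x), ← Finset.sum_filter, Finset.sum_const, nsmul_eq_mul]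
    congr 2
    rw [Fintype.card_subtype]
  rw [Finset.sum_comm, hB] at hA
  rw [Nat.card_eq_fintype_card, Nat.card_eq_fintype_card, Nat.card_eq_fintype_card]
  have := hA.symm
  exact_mod_cast this

end CfsgL.ExtraTwo
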