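import Cfsg.Agent.L.Mon.Grp
/-!
Groups of Monster type: fusion in `Q`.
-/
set_option autoImplicit false
set_option maxHeartbeats 400000
namespace CfsgL.Mon
open Finset Cfsg CfsgL.Leech CfsgL.Golay CfsgL.GU CfsgL.Lat CfsgL.ExtraTwo
open scoped Pointwise

namespace LM
variable {Q : Type*} [Group Q] {z : Q} {Γ : Subgroup (MulAut Q)} {R : leechLattice → Q → Prop}

theorem conj_of (h : LM z Γ R) {v w : leechLattice} {s t : Q} (hs : R v s) (ht : R w t)
    (hn : (sqNorm v.1 = 32 ∧ sqNorm w.1 = 32) ∨ (sqNorm v.1 = 64 ∧ sqNorm w.1 = 64)) :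
    ∃ f ∈ Γ, f s = t := by
  have hg : ∃ g : Co0, g • v = w := by
    rcases hn with ⟨h1, h2⟩ | ⟨h1, h2⟩
    · exact trans32 h1 h2
    · exact trans64' h1 h2
  obtain ⟨g, hg⟩ := hg
  have hnc := h.not_cen ht (by rcases hn with ⟨_, h2⟩ | ⟨_, h2⟩ <;> tauto)
  obtain ⟨f, hf, h1, -⟩ := h.act_to hs ht hnc g ⟨0, by rw [hg]; simp⟩
  exact ⟨f, hf, h1⟩

theorem short_rep' (h : LM z Γ R) (s : Q) : ∃ y, sqNorm y.1 ≤ 64 ∧ R y s := by
  obtain ⟨v, hv⟩ := h.surj s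
  obtain ⟨y, w, hyw, hy⟩ := short v
  refine ⟨y, hy, ?_⟩
  have h1 := h.R_shift (w := -w) hv
  have e : v + (-w + -w) = y := by
    have : v = y + (w + w) := by rw [← hyw]; abel
    rw [this]; abel
  rwa [e] at h1

end LM

section
variable {G : Type*} [Group G] [Finite G] {z : G}
  {Q : Subgroup (Subgroup.centralizer ({z} : Set G))} [hn : Q.Normal]
variable (hset : IsExtraspecialCentralizerSetting z Q 12)
  {e : (Subgroup.centralizer ({z} : Set G)) ⧸ Q ≃* Spor.Co1} {ψ : leechLattice → Q ⧸ Subgroup.center Q}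
  (hψ : IsLeechModTwoIso Q e ψ)
include hset hψ

omit hset hψ in
theorem gamma_conj {f : MulAut Q} (hf : f ∈ (MulAut.conjNormal : (Subgroup.centralizer ({z} : Set G)) →* MulAut Q).range)
    {s t : Q} (h : f s = t) : ∃ c ∈ Subgroup.centralizer ({z} : Set G),
      c * ((s : Subgroup.centralizer ({z} : Set G)) : G) * c⁻¹ = ((t : Subgroup.centralizer ({z} : Set G)) : G) := by
  obtain ⟨c, rfl⟩ := hf
  refine ⟨c, c.2, ?_⟩
  rw [← h]; rfl

theorem type4_iff (x : Q) : (IsConj z ((x : Subgroup.centralizer ({z} : Set G)) : G) ∧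
    ((x : Subgroup.centralizer ({z} : Set G)) : G) ≠ z) ↔
    ∃ v : leechLattice, sqNorm v.1 = 64 ∧ ψ v = QuotientGroup.mk x := by
  have h := lm_of hset hψ
  constructor
  · rintro ⟨h1, h2⟩
    obtain ⟨g, hg⟩ := isConj_iff.1 h1
    exact type4 hset hψ hg h2
  · rintro ⟨v, hv, hvx⟩
    obtain ⟨h1, h2, h3, h4, g, ⟨hq, hgQ⟩, hgz⟩ := hset
    obtain ⟨w, hw, hws⟩ := type4 ⟨h1, h2, h3, h4, g, ⟨hq, hgQ⟩, hgz⟩ hψ (g := g) (s := ⟨⟨g * z * g⁻¹, hq⟩, hgQ⟩) rfl hgz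
    obtain ⟨f, hf, hfs⟩ := h.conj_of hws hvx (Or.inr ⟨hw, hv⟩)
    obtain ⟨c, -, hc⟩ := gamma_conj hf hfs
    refine ⟨?_, ?_⟩
    · rw [isConj_iff]
      refine ⟨c * g, ?_⟩
      rw [← hc]
      change c * g * z * (c * g)⁻¹ = c * (g * z * g⁻¹) * c⁻¹
      group
    · intro hxz
      apply h.not_cen hvx (Or.inr hv)
      right
      apply Subtype.ext
      apply Subtype.ext
      exact hxz

end

end CfsgL.Mon
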