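import Cfsg.Agent.L.Mon.Lat3
import Cfsg.Agent.L.Lat.Co2
/-!
Singular subspaces of the Leech lattice modulo 2 invariant under a vector stabilizer: type 4.
-/
set_option autoImplicit false
set_option maxHeartbeats 400000
namespace CfsgL.Mon
open Finset Cfsg CfsgL.Leech CfsgL.Golay CfsgL.GU CfsgL.Lat CfsgL.ExtraTwo
open scoped Pointwise

theorem even_pat {x : GolayPt → ℤ} (hx : x ∈ leechLattice) (he : ∀ i, (2 : ℤ) ∣ x i) :
    ∃ C ∈ Sup, ∀ i, (i ∈ C ↔ ¬ (4 : ℤ) ∣ x i) := by
  obtain ⟨m, C, z, hm, hC, hz, rfl⟩ := mem_leech'.1 hx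
  refine ⟨C, hC, fun i => ?_⟩
  have h1 := he i
  unfold vec at h1 ⊢
  have h2 : ind C i = if i ∈ C then 1 else 0 := rfl
  rw [h2] at h1 ⊢
  by_cases hi : i ∈ C
  · rw [if_pos hi] at h1 ⊢
    constructor
    · intro _; rcases hm with rfl | rfl <;> omega
    · intro _; exact hi
  · rw [if_neg hi] at h1 ⊢
    constructor
    · intro h; exact absurd h hi
    · intro h; exfalso; rcases hm with rfl | rfl <;> omega

structure Good4 (M : AddSubgroup leechLattice) : Prop where
  two : ∀ w : leechLattice, w + w ∈ M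
  mem : e8 none ∈ M
  inv : ∀ g : Co0, (∃ a, g • e8 none = e8 none + (a + a)) → ∀ v ∈ M, g • v ∈ M
  sing : ∀ v ∈ M, (32 : ℤ) ∣ sqNorm v.1

namespace Good4

variable {M : AddSubgroup leechLattice}

theorem mono_ok (σ : M24) (c : Sup) : ∃ a, mono σ c • e8 none = e8 none + (a + a) := by
  rw [mono_e8]
  obtain ⟨w, hw⟩ := e8_congr (σ.1 none) none
  split_ifs
  · obtain ⟨w', hw'⟩ := e8_neg (σ.1 none)
    refine ⟨w + w', ?_⟩
    rw [hw', hw]; abel
  · exact ⟨w, hw⟩

theorem mono_mem (h : Good4 M) (σ : M24) (c : Sup) {v : leechLattice} (hv : v ∈ M) : mono σ c • v ∈ M :=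
  h.inv _ (mono_ok σ c) v hv

theorem stepA (h : Good4 M) {i j : GolayPt} (hij : i ≠ j) {s t : ℤ} (hs : s = 4 ∨ s = -4)
    (ht : t = 4 ∨ t = -4) {v : leechLattice} (hvM : v ∈ M) (hv : v.1 = v2 i j s t) :
    ∀ w, N4 w → w ∈ M := by
  have h44 : ∀ i' j', i' ≠ j' → ∀ w : leechLattice, w.1 = v2 i' j' 4 4 → w ∈ M := by
    intro i' j' hij' w hw
    obtain ⟨σ, h1, h2⟩ := M24_two hij hij'
    have h3 : pm σ • v ∈ M := h.mono_mem σ _ hvM
    have h4 := pm_v2 σ hij hv
    rw [h1, h2] at h4
    have ei := e8_all h.two h.mem i'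
    have ej := e8_all h.two h.mem j'
    -- correct the signs
    have h5 : w = pm σ • v + ((if s = -4 then e8 i' else 0) + (if t = -4 then e8 j' else 0)) := by
      apply Subtype.ext
      funext k
      have e1 : (pm σ • v + ((if s = -4 then e8 i' else 0) + (if t = -4 then e8 j' else 0)) : leechLattice).1 k =
        (pm σ • v).1 k + ((if s = -4 then e8 i' else 0 : leechLattice).1 k + (if t = -4 then e8 j' else 0 : leechLattice).1 k) := rfl
      rw [e1, hw, h4, v2_apply hij', v2_apply hij']
      have e2 : (if s = -4 then e8 i' else 0 : leechLattice).1 k = if s = -4 then (e8 i').1 k else 0 := by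
        split_ifs <;> rfl
      have e3 : (if t = -4 then e8 j' else 0 : leechLattice).1 k = if t = -4 then (e8 j').1 k else 0 := by
        split_ifs <;> rfl
      rw [e2, e3]
      by_cases hk : k = i'
      · subst hk
        rw [if_pos rfl, if_pos rfl, e8_same, e8_ne hij']
        rcases hs with rfl | rfl <;> simp
      · rw [if_neg hk, if_neg hk, e8_ne hk]
        by_cases hk2 : k = j'
        · subst hk2
          rw [if_pos rfl, if_pos rfl, e8_same]
          rcases ht with rfl | rfl <;> simp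
        · rw [if_neg hk2, if_neg hk2, e8_ne hk2]; simp
    rw [h5]
    apply M.add_mem h3
    apply M.add_mem
    · split_ifs
      · exact ei
      · exact M.zero_mem
    · split_ifs
      · exact ej
      · exact M.zero_mem
  intro w hw
  obtain ⟨a, ha, ha2⟩ := hw.exists
  have h6 : (fun i => 4 * a i) ∈ M.map leechLattice.subtype := by
    apply d4_of _ _ a ha2
    · intro i' j' hij'
      exact ⟨w2 i' j' 4 4 (Or.inl rfl) (Or.inl rfl), h44 i' j' hij' _ rfl, rfl⟩
    · intro i' j' hij'
      refine ⟨w2 i' j' 4 4 (Or.inl rfl) (Or.inl rfl) - e8 j', M.sub_mem (h44 i' j' hij' _ rfl)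
        (e8_all h.two h.mem j'), ?_⟩
      funext k
      change v2 i' j' 4 4 k - (e8 j').1 k = v2 i' j' 4 (-4) k
      rw [v2_apply hij', v2_apply hij']
      by_cases hk : k = i'
      · subst hk
        rw [if_pos rfl, if_pos rfl, e8_ne hij']; norm_num
      · rw [if_neg hk, if_neg hk]
        by_cases hk2 : k = j'
        · subst hk2
          rw [if_pos rfl, if_pos rfl, e8_same]; norm_num
        · rw [if_neg hk2, if_neg hk2, e8_ne hk2]; norm_num
  obtain ⟨w', hw', hw''⟩ := h6
  have : w = w' := by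
    apply Subtype.ext
    funext k
    rw [ha k]
    exact (congrFun hw'' k).symm
  rw [this]; exact hw'

theorem stepB (h : Good4 M) {y : leechLattice} (hy : y ∈ M) (h4 : N4 y) (hn : sqNorm y.1 ≤ 64)
    (h0 : y ≠ 0) (h8 : ∀ j, y ≠ e8 j ∧ y ≠ - e8 j) : ∀ w, N4 w → w ∈ M := by
  rcases norm_cases hn with h1 | h1 | h1 | h1
  · exact absurd h1 h0
  · rcases shape32 y.2 h1 with ⟨i, j, hij, hi, hj, hz⟩ | ⟨O, hO, h2, _⟩ | ⟨hodd, _⟩
    · apply h.stepA hij hi hj hy
      funext k
      rw [v2_apply hij]
      by_cases hk : k = i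
      · rw [if_pos hk, hk]
      · rw [if_neg hk]
        by_cases hk2 : k = j
        · rw [if_pos hk2, hk2]
        · rw [if_neg hk2]; exact hz k hk hk2
    · exfalso
      obtain ⟨i, hiO⟩ : ∃ i, i ∈ O := by
        have := card_octad hO
        exact Finset.card_pos.1 (by omega)
      have h3 := h4 i
      rcases h2 i hiO with h5 | h5 <;> rw [h5] at h3 <;> norm_num at h3
    · exfalso
      have := h4 none
      omega
  · exfalso
    have := h.sing _ hy
    rw [h1] at this; norm_num at this
  · -- norm 64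
    have hle : ∀ i, y.1 i ^ 2 ≤ 64 := fun i => by rw [← h1]; exact sq_le_norm _ i
    have hvals : ∀ i, y.1 i = 0 ∨ y.1 i = 4 ∨ y.1 i = -4 := by
      intro i
      have h2 := hle i
      have h3 := h4 i
      have h5 : -8 ≤ y.1 i ∧ y.1 i ≤ 8 := by constructor <;> nlinarith
      have h6 : y.1 i = 0 ∨ y.1 i = 4 ∨ y.1 i = -4 ∨ y.1 i = 8 ∨ y.1 i = -8 := by omega
      rcases h6 with h6 | h6 | h6 | h6 | h6
      · left; exact h6
      · right; left; exact h6
      · right; right; exact h6
      all_goals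
        exfalso
        have hz : ∀ k, k ≠ i → y.1 k = 0 := by
          intro k hk
          have h7 : ∑ j, y.1 j ^ 2 = 64 := h1
          have h8 : y.1 i ^ 2 + y.1 k ^ 2 ≤ ∑ j, y.1 j ^ 2 := by
            rw [← Finset.sum_pair (f := fun j => y.1 j ^ 2) (Ne.symm hk)]
            apply Finset.sum_le_sum_of_subset_of_nonneg (Finset.subset_univ _)
            intro j _ _
            positivity
          rw [h7, h6] at h8
          have h9 : y.1 k ^ 2 ≤ 0 := by linarith
          have h10 : y.1 k ^ 2 = 0 := le_antisymm h9 (by positivity)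
          exact pow_eq_zero_iff (n := 2) (by norm_num) |>.1 h10
      · apply (h8 i).1
        apply Subtype.ext
        funext k
        by_cases hk : k = i
        · rw [hk, h6, e8_same]
        · rw [hz k hk, e8_ne hk]
      · apply (h8 i).2
        apply Subtype.ext
        funext k
        change y.1 k = - (e8 i).1 k
        by_cases hk : k = i
        · rw [hk, h6, e8_same]
        · rw [hz k hk, e8_ne hk]; norm_num
    set S := Finset.univ.filter (fun i => y.1 i ≠ 0) with hS
    have hSc : S.card = 4 := by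
      have h2 : ∑ j, y.1 j ^ 2 = ∑ j ∈ S, (16 : ℤ) := by
        rw [hS, Finset.sum_filter]
        apply Finset.sum_congr rfl
        intro j _
        rcases hvals j with h3 | h3 | h3 <;> rw [h3] <;> simp
      have h3 : ∑ j, y.1 j ^ 2 = 64 := h1
      rw [h2, Finset.sum_const, nsmul_eq_mul] at h3
      have h5 : (S.card : ℤ) = 4 := by linarith
      exact_mod_cast h5
    obtain ⟨l, hl⟩ : ∃ l, l ∈ S := Finset.card_pos.1 (by omega)
    have hSe : (S.erase l).card = 3 := by rw [Finset.card_erase_of_mem hl, hSc]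
    obtain ⟨i, j, k, hij, hik, hjk, hSijk⟩ := Finset.card_eq_three.1 hSe
    obtain ⟨l', hl'⟩ : ∃ l', l' ∉ S := by
      by_contra hcon
      push Not at hcon
      have : S = Finset.univ := Finset.eq_univ_of_forall hcon
      rw [this, Finset.card_univ, card_pt] at hSc
      omega
    have hmem : ∀ x, x ∈ S ↔ (x = i ∨ x = j ∨ x = k ∨ x = l) := by
      intro x
      by_cases hx : x = l
      · subst hx; simp [hl]
      · have h2 : x ∈ S ↔ x ∈ S.erase l := by rw [Finset.mem_erase]; tauto
        rw [h2, hSijk]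
        simp only [Finset.mem_insert, Finset.mem_singleton]
        tauto
    have hil : i ≠ l := by
      rintro rfl
      have : i ∈ S.erase i := by rw [hSijk]; simp
      simp at this
    have hjl : j ≠ l := by
      rintro rfl
      have : j ∈ S.erase j := by rw [hSijk]; simp
      simp at this
    have hkl : k ≠ l := by
      rintro rfl
      have : k ∈ S.erase k := by rw [hSijk]; simp
      simp at this
    have hil' : i ≠ l' := by rintro rfl; exact hl' ((hmem i).2 (Or.inl rfl))
    have hjl' : j ≠ l' := by rintro rfl; exact hl' ((hmem j).2 (Or.inr (Or.inl rfl)))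
    have hkl' : k ≠ l' := by rintro rfl; exact hl' ((hmem k).2 (Or.inr (Or.inr (Or.inl rfl))))
    have hll' : l ≠ l' := by rintro rfl; exact hl' hl
    obtain ⟨σ, hσ⟩ := M24_emb (n := 4) (by norm_num)
      ⟨![i, j, k, l], by
        intro a b; fin_cases a <;> fin_cases b <;>
          simp [hij, hik, hjk, hil, hjl, hkl, hij.symm, hik.symm, hjk.symm, hil.symm, hjl.symm, hkl.symm]⟩
      ⟨![i, j, k, l'], by
        intro a b; fin_cases a <;> fin_cases b <;>
          simp [hij, hik, hjk, hil', hjl', hkl', hij.symm, hik.symm, hjk.symm, hil'.symm, hjl'.symm, hkl'.symm]⟩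
    have s0 : σ.1 i = i := hσ 0
    have s1 : σ.1 j = j := hσ 1
    have s2 : σ.1 k = k := hσ 2
    have s3 : σ.1 l = l' := hσ 3
    have hyl : y.1 l = 4 ∨ y.1 l = -4 := by
      rcases hvals l with h2 | h2 | h2
      · exact absurd h2 (Finset.mem_filter.1 hl).2
      · left; exact h2
      · right; exact h2
    have hyM' : pm σ • y ∈ M := h.mono_mem σ _ hy
    have hz : ∀ x, x ∉ S → y.1 x = 0 := by
      intro x hx
      by_contra h2
      exact hx (Finset.mem_filter.2 ⟨Finset.mem_univ _, h2⟩)
    have hv : (y - pm σ • y).1 = v2 l l' (y.1 l) (- y.1 l) := by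
      funext m
      change y.1 m - (pm σ • y).1 m = _
      obtain ⟨a, rfl⟩ := σ.1.surjective m
      rw [pm_at, v2_apply hll']
      by_cases ha : a ∈ S
      · rcases (hmem a).1 ha with rfl | rfl | rfl | rfl
        · rw [s0, if_neg hil, if_neg hil', sub_self]
        · rw [s1, if_neg hjl, if_neg hjl', sub_self]
        · rw [s2, if_neg hkl, if_neg hkl', sub_self]
        · rw [s3, if_neg (Ne.symm hll'), if_pos rfl, hz l' hl']; ring
      · rw [hz a ha]
        by_cases hm : σ.1 a ∈ S
        · rcases (hmem _).1 hm with h2 | h2 | h2 | h2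
          · exact absurd (σ.1.injective (h2.trans s0.symm)) (fun e => ha (e ▸ (hmem i).2 (Or.inl rfl)))
          · exact absurd (σ.1.injective (h2.trans s1.symm)) (fun e => ha (e ▸ (hmem j).2 (Or.inr (Or.inl rfl))))
          · exact absurd (σ.1.injective (h2.trans s2.symm)) (fun e => ha (e ▸ (hmem k).2 (Or.inr (Or.inr (Or.inl rfl)))))
          · rw [if_pos h2, h2, sub_zero]
        · have h3 : σ.1 a ≠ l := fun e => hm (e ▸ hl)
          have h5 : σ.1 a ≠ l' := fun e => ha (by
            have := σ.1.injective (e.trans s3.symm)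
            rw [this]; exact hl)
          rw [if_neg h3, if_neg h5, hz _ hm, sub_zero]
    exact h.stepA hll' hyl (by rcases hyl with h2 | h2 <;> rw [h2] <;> norm_num) (M.sub_mem hy hyM') hv

theorem N4_short {n : leechLattice} (h4 : N4 n) : ∃ y w, n = y + (w + w) ∧ N4 y ∧ sqNorm y.1 ≤ 64 := by
  obtain ⟨y, w, hyw, hy⟩ := short n
  refine ⟨y, w, by rw [← hyw]; abel, ?_, hy⟩
  have hyi : ∀ i, y.1 i = n.1 i - (w.1 i + w.1 i) := by
    intro i
    have : y = n - (w + w) := by rw [← hyw]; abel
    rw [this]; rfl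
  have hpar : ∀ i, (2 : ℤ) ∣ w.1 i := by
    intro i
    by_contra hodd
    have h2 : ∀ j, y.1 j ^ 2 ≥ 4 := by
      intro j
      have h3 := leechM.parity w.2 i j
      have h5 := h4 j
      have h6 := hyi j
      have h7 : y.1 j ≤ -2 ∨ 2 ≤ y.1 j := by omega
      rcases h7 with h7 | h7 <;> nlinarith
    have h3 : ∑ j : GolayPt, (4 : ℤ) ≤ ∑ j, y.1 j ^ 2 := Finset.sum_le_sum (fun j _ => h2 j)
    rw [Finset.sum_const, Finset.card_univ, card_pt] at h3
    have h5 : ∑ j, y.1 j ^ 2 ≤ 64 := hy
    have h6 := h3.trans h5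
    norm_num at h6
  intro i
  rw [hyi i]
  have h2 := h4 i
  have h3 := hpar i
  omega

theorem stepE (h : Good4 M) {n : leechLattice} (hn : n ∈ M) (h4 : N4 n)
    (h0 : ∀ w, n ≠ w + w) (h8 : ∀ w, n ≠ e8 none + (w + w)) : ∀ w, N4 w → w ∈ M := by
  obtain ⟨y, w, hnw, hy4, hy⟩ := N4_short h4
  have hyM : y ∈ M := by
    have : y = n - (w + w) := by rw [hnw]; abel
    rw [this]; exact M.sub_mem hn (h.two w)
  apply h.stepB hyM hy4 hy
  · rintro rfl
    exact h0 w (by rw [hnw, zero_add])
  · intro j
    obtain ⟨a, ha⟩ := e8_congr j none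
    constructor
    · rintro rfl
      apply h8 (a + w)
      rw [hnw, ha]; abel
    · rintro rfl
      obtain ⟨b, hb⟩ := e8_neg j
      apply h8 (a + b + w)
      rw [hnw, hb, ha]; abel

theorem stepC (h : Good4 M) {v : leechLattice} (hv : v ∈ M) : ∃ w u, N4 w ∧ v = w + (u + u) := by
  have hev := fun i => even_of_iso h.two h.sing h.mem hv i
  apply N4.of_all hev
  -- suppose some pair of coordinates disagrees mod 4
  have key : ∀ i j, ¬ (4 : ℤ) ∣ v.1 i → (4 : ℤ) ∣ v.1 j → False := by
    intro i j hi hj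
    have hij : i ≠ j := by rintro rfl; exact hi hj
    obtain ⟨c, hc, hsub, -⟩ := exists_octad {i, j} ∅ (by simp) (by rw [card_pair hij]; simp)
    have hic : i ∈ c := hsub (by simp)
    have hjc : j ∈ c := hsub (by simp)
    have hcS : c ∈ Sup := oct_sup hc
    have hnM : v - sg ⟨c, hcS⟩ • v ∈ M := M.sub_mem hv (h.mono_mem 1 _ hv)
    have hnk : ∀ k, (v - sg ⟨c, hcS⟩ • v).1 k = if k ∈ c then 2 * v.1 k else 0 := by
      intro k
      change v.1 k - (sg ⟨c, hcS⟩ • v).1 k = _
      rw [sg_at]
      change v.1 k - (if k ∈ c then - v.1 k else v.1 k) = _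
      split_ifs <;> ring
    have hn4 : N4 (v - sg ⟨c, hcS⟩ • v) := by
      intro k
      rw [hnk]
      split_ifs
      · have := hev k; omega
      · exact dvd_zero _
    -- no even lattice vector congruent to `v` on `c` and `0` off `c`
    have hno : ∀ w : leechLattice, (∀ k, (4 : ℤ) ∣ w.1 k - (if k ∈ c then v.1 k else 0)) → False := by
      intro w hw
      have hwe : ∀ k, (2 : ℤ) ∣ w.1 k := by
        intro k
        have h1 := hw k
        have h2 := hev k
        split_ifs at h1 <;> omega
      obtain ⟨C, hC, hCi⟩ := even_pat w.2 hwe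
      have hCc : C ⊆ c := by
        intro k hk
        by_contra hkc
        have h1 := hw k
        rw [if_neg hkc, sub_zero] at h1
        exact (hCi k).1 hk h1
      have hiC : i ∈ C := by
        rw [hCi]
        intro h1
        have h2 := hw i
        rw [if_pos hic] at h2
        exact hi ((dvd_sub_right h1).1 h2)
      have hjC : j ∉ C := by
        rw [hCi, not_not]
        have h2 := hw j
        rw [if_pos hjc] at h2
        exact (dvd_sub_left hj).1 h2
      have h1 : C.card < c.card := Finset.card_lt_card ⟨hCc, fun h => hjC (h hjc)⟩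
      rw [card_octad hc] at h1
      have h2 : 0 < C.card := Finset.card_pos.2 ⟨i, hiC⟩
      have h3 := G0_golay.four C (mem_G0.2 hC)
      have h5 := G0_golay.ne4 C (mem_G0.2 hC)
      omega
    have hall := h.stepE hnM hn4 (by
      intro w hw
      apply hno w
      intro k
      have h1 : (w + w).1 k = if k ∈ c then 2 * v.1 k else 0 := by rw [← hw, hnk]
      change w.1 k + w.1 k = _ at h1
      have h2 := hev k
      split_ifs at h1 ⊢ <;> omega) (by
      intro w hw
      apply hno w
      intro k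
      have h1 : (e8 none + (w + w)).1 k = if k ∈ c then 2 * v.1 k else 0 := by rw [← hw, hnk]
      change (e8 none).1 k + (w.1 k + w.1 k) = _ at h1
      have h3 : (e8 none).1 k = 8 ∨ (e8 none).1 k = 0 := by
        by_cases hk : k = none
        · left; rw [hk, e8_same]
        · right; rw [e8_ne hk]
      split_ifs at h1 ⊢ <;> rcases h3 with h3 | h3 <;> omega)
    have h6 := iso_of_sing h.sing hv (hall (w2 i j 4 4 (Or.inl rfl) (Or.inl rfl)) (N4_v2 _ _ _ _ _ _))
    rw [show (w2 i j 4 4 (Or.inl rfl) (Or.inl rfl)).1 = v2 i j 4 4 from rfl, dot_v2] at h6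
    have h7 := hev i
    omega
  intro i j
  have h1 := hev i
  have h2 := hev j
  by_cases hi : (4 : ℤ) ∣ v.1 i
  · by_cases hj : (4 : ℤ) ∣ v.1 j
    · exact dvd_add hi hj
    · exact (key j i hj hi).elim
  · by_cases hj : (4 : ℤ) ∣ v.1 j
    · exact (key i j hi hj).elim
    · omega

theorem final (h : Good4 M) (hbig : ∃ v ∈ M, (∀ w, v ≠ w + w) ∧ ∀ w, v ≠ e8 none + (w + w))
    (v : leechLattice) : v ∈ M ↔ ∃ w u, N4 w ∧ v = w + (u + u) := by
  constructor
  · exact fun hv => h.stepC hv
  · rintro ⟨w, u, hw, rfl⟩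
    apply M.add_mem _ (h.two u)
    obtain ⟨b, hb, hb0, hb8⟩ := hbig
    obtain ⟨n, t, hn4, hbn⟩ := h.stepC hb
    have hnM : n ∈ M := by
      have : n = b - (t + t) := by rw [hbn]; abel
      rw [this]; exact M.sub_mem hb (h.two t)
    apply h.stepE hnM hn4 _ _ w hw
    · intro a ha
      apply hb0 (a + t)
      rw [hbn, ha]; abel
    · intro a ha
      apply hb8 (a + t)
      rw [hbn, ha]; abel

end Good4

end CfsgL.Mon
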