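import Cfsg.Agent.L.Mon.Fin
import Cfsg.Agent.L.Mon.Lat4
/-!
Groups of Monster type: the intersection of `Q` with its conjugates.
-/
set_option autoImplicit false
set_option maxHeartbeats 400000
namespace CfsgL.Mon
open Finset Cfsg CfsgL.Leech CfsgL.Golay CfsgL.GU CfsgL.Lat CfsgL.ExtraTwo
open scoped Pointwise

namespace LM
variable {Q : Type*} [Group Q] {z : Q} {Γ : Subgroup (MulAut Q)} {R : leechLattice → Q → Prop}

theorem good4 (h : LM z Γ R) {s : Q} {v : leechLattice} (hs : R v s) (hv : sqNorm v.1 = 64)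
    (D : Subgroup Q) (hsD : s ∈ D) (hsq : ∀ x ∈ D, x * x = 1)
    (hinv : ∀ f ∈ Γ, f s = s → ∀ x ∈ D, f x ∈ D) {k : Co0} (hk : k • v = e8 none) :
    Good4 (Good.tr (h.lat D) k) := by
  refine ⟨?_, ?_, ?_, ?_⟩
  · intro w
    rw [Good.mem_tr, co_add]
    exact h.lat_two D _
  · rw [← hk]
    exact Good.smul_mem_tr ⟨s, hsD, hs⟩
  · rintro g ⟨a, ha⟩ w hw
    rw [Good.mem_tr] at hw ⊢
    have h1 := h.lat_inv hs (Or.inr hv) D hinv (k⁻¹ * g * k) ⟨k⁻¹ • a, by
      rw [mul_smul, mul_smul, hk, ha, co_add, co_add, ← hk, inv_smul_smul]⟩ _ hw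
    rw [mul_smul, mul_smul, smul_inv_smul] at h1
    exact h1
  · intro w hw
    have := h.lat_sing hsq (Good.mem_tr.1 hw)
    rwa [co_norm] at this

theorem card_cc (h : LM z Γ R) [Finite Q] (hQ : Nat.card Q = 2 ^ 25) {s : Q} (hs : ¬ (s = 1 ∨ s = z)) :
    Nat.card (Subgroup.centralizer (Subgroup.centralizer ({s} : Set Q) : Set Q)) = 4 := by
  have h1 := h.dat.count h.mem (Subgroup.centralizer ({s} : Set Q)) (by
    rw [Subgroup.mem_centralizer_singleton_iff]; exact (h.dat.cen s).symm)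
  have h2 := Subgroup.card_mul_index (Subgroup.centralizer ({s} : Set Q))
  rw [cent_index h.dat (h.noncentral hs), hQ] at h2
  have h3 : Nat.card (Subgroup.centralizer ({s} : Set Q)) = 2 ^ 24 := by
    have h4 : (2 : ℕ) ^ 25 = 2 ^ 24 * 2 := by norm_num
    rw [h4] at h2
    exact Nat.eq_of_mul_eq_mul_right (by norm_num) h2
  rw [h3, hQ] at h1
  have h5 : 2 * (2 : ℕ) ^ 25 = 4 * 2 ^ 24 := by norm_num
  rw [h5] at h1
  exact (Nat.eq_of_mul_eq_mul_right (by norm_num) h1).symm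

theorem z_mem_D (h : LM z Γ R) [Finite Q] (hQ : Nat.card Q = 2 ^ 25) {s : Q} (hs : ¬ (s = 1 ∨ s = z))
    (D : Subgroup Q) (hinv : ∀ f ∈ Γ, f s = s → ∀ x ∈ D, f x ∈ D) (h8 : 8 ≤ Nat.card D) : z ∈ D := by
  by_contra hz
  have hle : D ≤ Subgroup.centralizer (Subgroup.centralizer ({s} : Set Q) : Set Q) := by
    intro x hx
    rw [Subgroup.mem_centralizer_iff]
    intro y hy
    have hy' : y * s = s * y := Subgroup.mem_centralizer_singleton_iff.1 hy
    have h1 := hinv (MulAut.conj y) (h.inn y) (by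
      rw [MulAut.conj_apply, hy', mul_inv_cancel_right]) x hx
    rw [MulAut.conj_apply] at h1
    rcases h.conj_near y x with h2 | h2
    · exact mul_inv_eq_iff_eq_mul.1 h2
    · exfalso
      rw [h2] at h1
      have := D.mul_mem (D.inv_mem hx) h1
      rw [inv_mul_cancel_left] at this
      exact hz this
  have h1 := Subgroup.card_le_of_le hle
  rw [h.card_cc hQ hs] at h1
  omega

theorem map_D (h : LM z Γ R) {s : Q} {v : leechLattice} (hs : R v s) (hv : sqNorm v.1 = 64)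
    (D : Subgroup Q) (hsD : s ∈ D) (hzD : z ∈ D) (hsq : ∀ x ∈ D, x * x = 1)
    (hinv : ∀ f ∈ Γ, f s = s → ∀ x ∈ D, f x ∈ D)
    (hbig : ∃ x ∈ D, ¬ (x = 1 ∨ x = z ∨ x = s ∨ x = s * z)) :
    ∃ f ∈ Γ, D.map (f : Q ≃* Q).toMonoidHom = h.En := by
  obtain ⟨k, hk⟩ := trans64' hv (norm_e8 none)
  have hG := h.good4 hs hv D hsD hsq hinv hk
  obtain ⟨x0, hx0, hx0n⟩ := hbig
  have hfin := hG.final (by
    obtain ⟨w, hw⟩ := h.surj x0
    refine ⟨k • w, Good.smul_mem_tr ⟨x0, hx0, hw⟩, ?_, ?_⟩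
    · intro a ha
      apply hx0n
      have h1 : w = k⁻¹ • a + k⁻¹ • a := by rw [← co_add, ← ha, inv_smul_smul]
      rcases (h.ker _ _ hw).2 ⟨_, h1⟩ with h2 | h2
      · left; exact h2
      · right; left; exact h2
    · intro a ha
      apply hx0n
      have h1 : w = v + (k⁻¹ • a + k⁻¹ • a) := by
        rw [← co_add]
        have : v = k⁻¹ • e8 none := by rw [← hk, inv_smul_smul]
        rw [this, ← co_add, ← ha, inv_smul_smul]
      have h2 := h.R_shift (w := -(k⁻¹ • a)) hw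
      rw [h1] at h2
      have e : v + (k⁻¹ • a + k⁻¹ • a) + (-(k⁻¹ • a) + -(k⁻¹ • a)) = v := by abel
      rw [e] at h2
      rcases h.uniq _ _ _ hs h2 with h3 | h3
      · right; right; left; exact h3
      · right; right; right; exact h3)
  obtain ⟨f, hf, hfR⟩ := h.act k
  refine ⟨f, hf, ?_⟩
  have hiff : ∀ x, x ∈ D ↔ f x ∈ h.En := by
    intro x
    obtain ⟨w, hw⟩ := h.surj x
    have hfx := hfR _ _ hw
    constructor
    · intro hx
      obtain ⟨n, u, hn, hnu⟩ := (hfin (k • w)).1 (Good.smul_mem_tr ⟨x, hx, hw⟩)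
      refine ⟨n, hn, ?_⟩
      have h2 := h.R_shift (w := -u) hfx
      rw [hnu] at h2
      have e : n + (u + u) + (-u + -u) = n := by abel
      rwa [e] at h2
    · rintro ⟨n, hn, hnx⟩
      obtain ⟨u, hu⟩ := h.R_eq hfx hnx
      have h1 := (hfin (k • w)).2 ⟨n, u, hn, hu⟩
      rw [Good.mem_tr, inv_smul_smul] at h1
      obtain ⟨x', hx', hwx'⟩ := h1
      rcases h.uniq _ _ _ hwx' hw with h2 | h2
      · rw [h2]; exact hx'
      · rw [h2]; exact D.mul_mem hx' hzD
  ext y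
  constructor
  · rintro ⟨x, hx, rfl⟩
    exact (hiff x).1 hx
  · intro hy
    obtain ⟨x, rfl⟩ := f.surjective y
    exact ⟨x, (hiff x).2 hy, rfl⟩

end LM

section
variable {G : Type*} [Group G] [Finite G] {z : G}
  {Q : Subgroup (Subgroup.centralizer ({z} : Set G))} [hn : Q.Normal]
variable (hset : IsExtraspecialCentralizerSetting z Q 12)
  {e : (Subgroup.centralizer ({z} : Set G)) ⧸ Q ≃* Spor.Co1} {ψ : leechLattice → Q ⧸ Subgroup.center Q}
  (hψ : IsLeechModTwoIso Q e ψ)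
include hset hψ

theorem DD_facts {g : G} {s : Q} (hs : g * z * g⁻¹ = ((s : Subgroup.centralizer ({z} : Set G)) : G))
    (hne : ((s : Subgroup.centralizer ({z} : Set G)) : G) ≠ z) :
    zz hset ∈ DD Q g ∧ Nat.card (DD Q g) = 2 ^ 13 := by
  have h := lm_of hset hψ
  have hg : g * z * g⁻¹ ≠ z := by rw [hs]; exact hne
  have hsD : s ∈ DD Q g := mem_DD.2 ⟨zz hset, hs⟩
  obtain ⟨v, hv, hvs⟩ := type4 hset hψ hs hne
  have hsz := h.not_cen hvs (Or.inr hv)
  have h8 := DD_card hset hψ hg hs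
  have hQ : Nat.card Q = 2 ^ 25 := hset.2.2.2.1
  have hz := h.z_mem_D hQ hsz (DD Q g) (fun f hf hfs x hx => DD_inv hs f hf hfs hx) h8
  refine ⟨hz, ?_⟩
  obtain ⟨f, -, hfm⟩ := h.map_D hvs hv (DD Q g) hsD hz (fun x hx => DD_sq hset hψ hg hx)
    (fun f hf hfs x hx => DD_inv hs f hf hfs hx) (by
      classical
      by_contra hcon
      push Not at hcon
      have h5 : ((DD Q g : Subgroup Q) : Set Q) ⊆ (({1, zz hset, s, s * zz hset} : Finset Q) : Set Q) := by
        intro x hx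
        have := hcon x hx
        simp only [Finset.coe_insert, Finset.coe_singleton, Set.mem_insert_iff, Set.mem_singleton_iff]
        exact this
      have h6 := Set.ncard_le_ncard h5 (Finset.finite_toSet _)
      rw [Set.ncard_coe_finset] at h6
      have h7 := le_trans h6 Finset.card_le_four
      have h9 : Nat.card (DD Q g) ≤ 4 := h7
      omega)
  rw [← h.card_En hQ, ← hfm]
  have hinj : Function.Injective ((f : Q ≃* Q).toMonoidHom) := f.injective
  exact (Subgroup.card_map_of_injective hinj).symm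

end

end CfsgL.Mon
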