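import Cfsg.Agent.L.Mon.LM
import Cfsg.Prelude.Def_MonsterType
import Cfsg.Agent.H2.GenFitting
import Cfsg.Agent.H3.PGroup
/-!
Groups of Monster type give Leech data.
-/
set_option autoImplicit false
set_option maxHeartbeats 400000
namespace CfsgL.Mon
open Finset Cfsg CfsgL.Leech CfsgL.Golay CfsgL.GU CfsgL.Lat CfsgL.ExtraTwo
open scoped Pointwise

theorem exists_dat {Q : Type*} [Group Q] [Finite Q] (hQ : IsExtraspecial 2 Q) :
    ∃ z : Q, z ∈ Subgroup.center Q ∧ Dat Q z ∧ (∀ a : Q, (∀ b, b * a = a * b) → a = 1 ∨ a = z) ∧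
      (∀ a : Q, a * a = 1 ∨ a * a = z) := by
  haveI : Fact (Nat.Prime 2) := ⟨Nat.prime_two⟩
  obtain ⟨⟨hP, hf, hc⟩, hZ⟩ := hQ
  obtain ⟨z, hzne, hzall⟩ : ∃ z : ↥(Subgroup.center Q), z ≠ 1 ∧ ∀ y, y = 1 ∨ y = z := by
    obtain ⟨x, y, hxy, huniv⟩ := Nat.card_eq_two_iff.1 hZ
    have hall : ∀ w : ↥(Subgroup.center Q), w = x ∨ w = y := by
      intro w
      have : w ∈ ({x, y} : Set ↥(Subgroup.center Q)) := by rw [huniv]; trivial
      simpa using this
    rcases hall 1 with h1 | h1
    · exact ⟨y, fun h => hxy (by rw [h, h1]), fun w => by rw [h1]; exact hall w⟩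
    · exact ⟨x, fun h => hxy (by rw [h, h1]), fun w => by
        rw [h1]; exact (hall w).symm⟩
  have hzc : ∀ x : Q, x * (z : Q) = z * x := fun x => (Subgroup.mem_center_iff.1 z.2 x)
  have hmemZ : ∀ c : Q, c ∈ Subgroup.center Q → c = 1 ∨ c = z := by
    intro c hc'
    rcases hzall ⟨c, hc'⟩ with h | h
    · left; exact congrArg Subtype.val h
    · right; exact congrArg Subtype.val h
  have hz1 : (z : Q) ≠ 1 := fun h => hzne (Subtype.ext h)
  have hzz : (z : Q) * z = 1 := by
    rcases hzall (z * z) with h | h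
    · exact congrArg Subtype.val h
    · exact absurd (mul_eq_left.1 h) hzne
  refine ⟨z, z.2, ⟨hz1, hzz, hzc, ?_⟩, fun a ha => hmemZ a (Subgroup.mem_center_iff.2 ha), ?_⟩
  · intro a b
    have h1' : a⁻¹ * b⁻¹ * a * b ∈ Subgroup.center Q := by
      rw [← hc]
      have := Subgroup.commutator_mem_commutator (Subgroup.mem_top a⁻¹) (Subgroup.mem_top b⁻¹)
      rw [commutatorElement_def, inv_inv, inv_inv] at this
      exact this
    have e : a * b = b * a * (a⁻¹ * b⁻¹ * a * b) := by group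
    rcases hmemZ _ h1' with h | h
    · left
      rw [e, h, mul_one]
    · right
      rw [e, h]
  · intro x
    apply hmemZ
    rw [← hf, ← pow_two]
    exact CfsgH3.pow_mem_frattini hP x

variable {G : Type*} [Group G] [Finite G] {z : G}
  {Q : Subgroup (Subgroup.centralizer ({z} : Set G))} [hn : Q.Normal]

theorem z_mem (hset : IsExtraspecialCentralizerSetting z Q 12) :
    (⟨z, Subgroup.mem_centralizer_singleton_iff.2 rfl⟩ : Subgroup.centralizer ({z} : Set G)) ∈ Q := by
  obtain ⟨h1, h2, h3, h4, h5⟩ := hset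
  rw [← h2]
  apply CfsgH2.centralizer_generalizedFittingSubgroup_le
  rw [Subgroup.mem_centralizer_iff]
  intro x _
  apply Subtype.ext
  exact Subgroup.mem_centralizer_singleton_iff.1 x.2

theorem lm_of (hset : IsExtraspecialCentralizerSetting z Q 12)
    {e : (Subgroup.centralizer ({z} : Set G)) ⧸ Q ≃* Spor.Co1} {ψ : leechLattice → Q ⧸ Subgroup.center Q}
    (hψ : IsLeechModTwoIso Q e ψ) :
    LM (⟨⟨z, Subgroup.mem_centralizer_singleton_iff.2 rfl⟩, z_mem hset⟩ : Q)
      (MulAut.conjNormal : (Subgroup.centralizer ({z} : Set G)) →* MulAut Q).range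
      (fun v x => ψ v = QuotientGroup.mk x) := by
  obtain ⟨z0, hz0, hD, hmem, hsq⟩ := exists_dat hset.2.2.1
  have hz : (⟨⟨z, Subgroup.mem_centralizer_singleton_iff.2 rfl⟩, z_mem hset⟩ : Q) = z0 := by
    rcases hmem (⟨⟨z, Subgroup.mem_centralizer_singleton_iff.2 rfl⟩, z_mem hset⟩ : Q) (by
      intro b
      apply Subtype.ext
      apply Subtype.ext
      exact Subgroup.mem_centralizer_singleton_iff.1 b.1.2) with h | h
    · exfalso
      have h1 : z = 1 := congrArg (fun t : Q => ((t : Subgroup.centralizer ({z} : Set G)) : G)) h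
      have h2 := hset.1
      rw [h1, orderOf_one] at h2
      omega
    · exact h
  rw [hz]
  obtain ⟨ha, hs, hk, hact⟩ := hψ
  have hmk : ∀ x y : Q, (QuotientGroup.mk x : Q ⧸ Subgroup.center Q) = QuotientGroup.mk y ↔
      (y = x ∨ y = x * z0) := by
    intro x y
    rw [QuotientGroup.eq]
    constructor
    · intro h
      rcases hmem _ (fun b => Subgroup.mem_center_iff.1 h b) with h' | h'
      · left; exact (inv_mul_eq_one.1 h').symm
      · right; exact inv_mul_eq_iff_eq_mul.1 h'
    · rintro (rfl | rfl)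
      · rw [inv_mul_cancel]; exact one_mem _
      · rw [inv_mul_cancel_left]; exact hz0
  refine ⟨hD, hmem, hsq, ?_, ?_, ?_, ?_, ?_, ?_, ?_, ?_⟩
  · intro v w x y hv hw
    rw [ha, hv, hw]; rfl
  · intro v
    obtain ⟨x, hx⟩ := QuotientGroup.mk_surjective (ψ v)
    exact ⟨x, hx.symm⟩
  · intro x
    exact hs _
  · intro v x hv
    rw [← hk v, hv]
    have : (1 : Q ⧸ Subgroup.center Q) = QuotientGroup.mk 1 := rfl
    rw [this, hmk]
    constructor
    · rintro (h | h)
      · left; exact h.symm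
      · right; rw [h, hD.zz]
    · rintro (h | h)
      · left; exact h.symm
      · right
        have h1 : x * z0 * z0 = z0 := by rw [← h, one_mul]
        rw [mul_assoc, hD.zz, mul_one] at h1
        exact h1
  · intro v x hv
    rw [hv, hmk]; right; rfl
  · intro v x y hx hy
    rw [hx, hmk] at hy
    exact hy
  · intro g
    obtain ⟨h, hh⟩ := QuotientGroup.mk_surjective (e.symm (QuotientGroup.mk g))
    refine ⟨MulAut.conjNormal h, ⟨h, rfl⟩, ?_⟩
    intro v x hv
    have h1 := hact h g (by rw [hh, MulEquiv.apply_symm_apply]) v x hv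
    rw [h1]
    rfl
  · intro y
    refine ⟨(y : Subgroup.centralizer ({z} : Set G)), ?_⟩
    ext x
    rfl

end CfsgL.Mon
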