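import Cfsg.Agent.L.Mon.Lat3
import Cfsg.Agent.L.Mon.Setup
import Cfsg.Agent.L.Lat.Co2
/-!
Groups of Monster type: conjugates of `z` in `Q`.
-/
set_option autoImplicit false
set_option maxHeartbeats 400000
namespace CfsgL.Mon
open Finset Cfsg CfsgL.Leech CfsgL.Golay CfsgL.GU CfsgL.Lat CfsgL.ExtraTwo
open scoped Pointwise

theorem cent_index {Q : Type*} [Group Q] {z : Q} (D : Dat Q z) {s : Q} (hs : ∃ b, ¬ b * s = s * b) :
    (Subgroup.centralizer ({s} : Set Q)).index = 2 := by
  obtain ⟨a, ha⟩ := hs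
  rw [Subgroup.index_eq_two_iff]
  refine ⟨a, fun b => ?_⟩
  rw [Subgroup.mem_centralizer_singleton_iff, Subgroup.mem_centralizer_singleton_iff]
  by_cases hb : b * s = s * b
  · right
    exact ⟨hb, mul_cn hb ha⟩
  · left
    exact ⟨D.mul_nn hb ha, hb⟩

namespace LM

variable {Q : Type*} [Group Q] {z : Q} {Γ : Subgroup (MulAut Q)} {R : leechLattice → Q → Prop}

theorem noncentral (h : LM z Γ R) {s : Q} (hs : ¬ (s = 1 ∨ s = z)) : ∃ b, ¬ b * s = s * b := by
  by_contra hcon
  push Not at hcon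
  exact hs (h.mem s hcon)

theorem conj_mulz (h : LM z Γ R) {s : Q} (hs : ¬ (s = 1 ∨ s = z)) : ∃ y : Q, y * (s * z) * y⁻¹ = s := by
  obtain ⟨b, hb⟩ := h.noncentral hs
  refine ⟨b, ?_⟩
  have h1 : b * s = s * b * z := (h.dat.com b s).resolve_left hb
  rw [← mul_assoc, h1, mul_assoc (s * b), h.dat.zz, mul_one, mul_inv_cancel_right]

theorem conj_near (h : LM z Γ R) (y x : Q) : y * x * y⁻¹ = x ∨ y * x * y⁻¹ = x * z := by
  rcases h.dat.com y x with h1 | h1
  · left; rw [h1, mul_inv_cancel_right]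
  · right
    rw [h1, mul_assoc, ← h.dat.cen, ← mul_assoc, mul_inv_cancel_right]

theorem act_to (h : LM z Γ R) {u w : leechLattice} {s t : Q} (hs : R u s) (ht : R w t)
    (hnc : ¬ (t = 1 ∨ t = z)) (g : Co0) (hg : ∃ a, g • u = w + (a + a)) :
    ∃ f ∈ Γ, f s = t ∧ ∀ v x, R v x → R (g • v) (f x) := by
  obtain ⟨a, ha⟩ := hg
  obtain ⟨f, hf, hfR⟩ := h.act g
  have h1 := hfR _ _ hs
  rw [ha] at h1
  have h2 := h.R_shift (w := -a) h1
  have e : w + (a + a) + (-a + -a) = w := by abel
  rw [e] at h2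
  rcases h.uniq _ _ _ ht h2 with h3 | h3
  · exact ⟨f, hf, h3, hfR⟩
  · obtain ⟨y, hy⟩ := h.conj_mulz hnc
    refine ⟨MulAut.conj y * f, Γ.mul_mem (h.inn y) hf, ?_, ?_⟩
    · rw [MulAut.mul_apply, h3, MulAut.conj_apply, hy]
    · intro v x hvx
      rw [MulAut.mul_apply, MulAut.conj_apply]
      rcases h.conj_near y (f x) with h4 | h4
      · rw [h4]; exact hfR _ _ hvx
      · rw [h4]; exact h.mulz _ _ (hfR _ _ hvx)

theorem not_cen {u : leechLattice} {s : Q} (h : LM z Γ R) (hs : R u s) (hn : sqNorm u.1 = 32 ∨ sqNorm u.1 = 64) :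
    ¬ (s = 1 ∨ s = z) := by
  intro h1
  obtain ⟨w, hw⟩ := (h.ker _ _ hs).1 h1
  have h2 : sqNorm u.1 = 4 * sqNorm w.1 := by
    rw [hw, coe_add', norm_add, ← sqNorm_eq_dot]; ring
  have h3 := norm_dvd w.2
  by_cases h0 : w = 0
  · rw [h0] at h2
    have : sqNorm (0 : leechLattice).1 = 0 := norm_zero
    rw [this] at h2
    omega
  · have := norm_min w.2 (fun e => h0 (Subtype.ext e))
    omega

/-- the lattice attached to a subgroup -/
def lat (h : LM z Γ R) (D : Subgroup Q) : AddSubgroup leechLattice where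
  carrier := {v | ∃ x ∈ D, R v x}
  zero_mem' := ⟨1, D.one_mem, h.R_zero⟩
  add_mem' := by
    rintro a b ⟨x, hx, hax⟩ ⟨y, hy, hby⟩
    exact ⟨x * y, D.mul_mem hx hy, h.add _ _ _ _ hax hby⟩
  neg_mem' := by
    rintro a ⟨x, hx, hax⟩
    exact ⟨x, hx, h.R_neg hax⟩

theorem mem_lat (h : LM z Γ R) {D : Subgroup Q} {v : leechLattice} : v ∈ h.lat D ↔ ∃ x ∈ D, R v x := Iff.rfl

theorem lat_two (h : LM z Γ R) (D : Subgroup Q) (w : leechLattice) : w + w ∈ h.lat D := by
  refine ⟨1, D.one_mem, ?_⟩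
  have := h.R_shift (w := w) h.R_zero
  rwa [zero_add] at this

theorem lat_sing (h : LM z Γ R) {D : Subgroup Q} (hsq : ∀ x ∈ D, x * x = 1) {v : leechLattice}
    (hv : v ∈ h.lat D) : (32 : ℤ) ∣ sqNorm v.1 := by
  obtain ⟨x, hx, hvx⟩ := hv
  exact (h.sq_iff hvx).1 (hsq x hx)

theorem lat_inv (h : LM z Γ R) {s : Q} {u : leechLattice} (hs : R u s)
    (hn : sqNorm u.1 = 32 ∨ sqNorm u.1 = 64) (D : Subgroup Q)
    (hinv : ∀ f ∈ Γ, f s = s → ∀ x ∈ D, f x ∈ D) (g : Co0) (hg : ∃ a, g • u = u + (a + a)) :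
    ∀ v ∈ h.lat D, g • v ∈ h.lat D := by
  rintro v ⟨x, hx, hvx⟩
  obtain ⟨f, hf, h1, h2⟩ := h.act_to hs hs (h.not_cen hs hn) g hg
  exact ⟨f x, hinv f hf h1 x hx, h2 _ _ hvx⟩

theorem type2_D (h : LM z Γ R) {s : Q} {u : leechLattice} (hs : R u s) (hu : sqNorm u.1 = 32)
    (D : Subgroup Q) (hsD : s ∈ D) (hsq : ∀ x ∈ D, x * x = 1)
    (hinv : ∀ f ∈ Γ, f s = s → ∀ x ∈ D, f x ∈ D) :
    ∀ x ∈ D, x = 1 ∨ x = z ∨ x = s ∨ x = s * z := by
  have hG : Good (h.lat D) u := by
    refine ⟨h.lat_two D, ⟨s, hsD, hs⟩, hu, ?_, fun v hv => h.lat_sing hsq hv⟩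
    intro g hg
    exact h.lat_inv hs (Or.inl hu) D hinv g ⟨0, by rw [hg]; simp⟩
  intro x hx
  obtain ⟨v, hv⟩ := h.surj x
  rcases hG.final ⟨x, hx, hv⟩ with h1 | ⟨w, hw⟩
  · rcases (h.ker _ _ hv).2 h1 with h2 | h2
    · left; exact h2
    · right; left; exact h2
  · have h2 := h.R_shift (w := -w) hv
    rw [hw] at h2
    have e : u + (w + w) + (-w + -w) = u := by abel
    rw [e] at h2
    rcases h.uniq _ _ _ hs h2 with h3 | h3
    · right; right; left; exact h3
    · right; right; right; exact h3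

end LM

theorem card_Co1 : 2 * Nat.card Spor.Co1 = 8315553613086720000 := by
  have h1 := Subgroup.card_eq_card_quotient_mul_card_subgroup (Subgroup.center Co0)
  rw [card_Co0, card_center] at h1
  rw [mul_comm]
  exact h1.symm

section
variable {G : Type*} [Group G] [Finite G] {z : G}
  {Q : Subgroup (Subgroup.centralizer ({z} : Set G))} [hn : Q.Normal]

/-- the subgroup of `Q` of elements lying in `g Q g⁻¹` -/
def DD (Q : Subgroup (Subgroup.centralizer ({z} : Set G))) (g : G) : Subgroup Q :=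
  ((Q.map (Subgroup.centralizer ({z} : Set G)).subtype).map (MulAut.conj g).toMonoidHom).comap
    ((Subgroup.centralizer ({z} : Set G)).subtype.comp Q.subtype)

theorem mem_DD {g : G} {x : Q} : x ∈ DD Q g ↔ ∃ y : Q, g * ((y : Subgroup.centralizer ({z} : Set G)) : G) * g⁻¹ =
    ((x : Subgroup.centralizer ({z} : Set G)) : G) := by
  constructor
  · rintro ⟨_, ⟨c, hc, rfl⟩, h2⟩
    exact ⟨⟨c, hc⟩, h2⟩
  · rintro ⟨y, hy⟩
    exact ⟨_, ⟨y.1, y.2, rfl⟩, hy⟩

variable (hset : IsExtraspecialCentralizerSetting z Q 12)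
  {e : (Subgroup.centralizer ({z} : Set G)) ⧸ Q ≃* Spor.Co1} {ψ : leechLattice → Q ⧸ Subgroup.center Q}
  (hψ : IsLeechModTwoIso Q e ψ)
include hset hψ

/-- the central involution as an element of `Q` -/
def zz (hset : IsExtraspecialCentralizerSetting z Q 12) : Q :=
  ⟨⟨z, Subgroup.mem_centralizer_singleton_iff.2 rfl⟩, z_mem hset⟩

theorem DD_sq {g : G} (hg : g * z * g⁻¹ ≠ z) {x : Q} (hx : x ∈ DD Q g) : x * x = 1 := by
  have h := lm_of hset hψ
  obtain ⟨y, hy⟩ := mem_DD.1 hx
  rcases h.sq x with h1 | h1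
  · exact h1
  · exfalso
    have h2 : ((x * x : Q) : Subgroup.centralizer ({z} : Set G)) = ⟨z, _⟩ := congrArg Subtype.val h1
    have h3 : ((x : Subgroup.centralizer ({z} : Set G)) : G) * ((x : Subgroup.centralizer ({z} : Set G)) : G) = z :=
      congrArg Subtype.val h2
    rcases h.sq y with h4 | h4
    · have h5 : ((y : Subgroup.centralizer ({z} : Set G)) : G) * ((y : Subgroup.centralizer ({z} : Set G)) : G) = 1 :=
        congrArg (fun t : Q => ((t : Subgroup.centralizer ({z} : Set G)) : G)) h4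
      rw [← hy] at h3
      have h6 : z = 1 := by
        rw [← h3]
        calc _ = g * (((y : Subgroup.centralizer ({z} : Set G)) : G) * ((y : Subgroup.centralizer ({z} : Set G)) : G)) * g⁻¹ := by group
          _ = 1 := by rw [h5]; group
      apply hg
      rw [h6]; group
    · have h5 : ((y : Subgroup.centralizer ({z} : Set G)) : G) * ((y : Subgroup.centralizer ({z} : Set G)) : G) = z :=
        congrArg (fun t : Q => ((t : Subgroup.centralizer ({z} : Set G)) : G)) h4
      rw [← hy] at h3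
      apply hg
      calc g * z * g⁻¹ = g * (((y : Subgroup.centralizer ({z} : Set G)) : G) * ((y : Subgroup.centralizer ({z} : Set G)) : G)) * g⁻¹ := by rw [h5]
        _ = g * ((y : Subgroup.centralizer ({z} : Set G)) : G) * g⁻¹ * (g * ((y : Subgroup.centralizer ({z} : Set G)) : G) * g⁻¹) := by group
        _ = z := h3

omit hset hψ in
theorem DD_inv {g : G} {s : Q} (hs : g * z * g⁻¹ = ((s : Subgroup.centralizer ({z} : Set G)) : G))
    (f : MulAut Q) (hf : f ∈ (MulAut.conjNormal : (Subgroup.centralizer ({z} : Set G)) →* MulAut Q).range)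
    (hfs : f s = s) {x : Q} (hx : x ∈ DD Q g) : f x ∈ DD Q g := by
  obtain ⟨c, rfl⟩ := hf
  obtain ⟨y, hy⟩ := mem_DD.1 hx
  have h1 : ((MulAut.conjNormal c s : Q) : Subgroup.centralizer ({z} : Set G)) = c * s * c⁻¹ := rfl
  rw [hfs] at h1
  have h2 : ((s : Subgroup.centralizer ({z} : Set G)) : G) = (c : G) * ((s : Subgroup.centralizer ({z} : Set G)) : G) * (c : G)⁻¹ :=
    congrArg Subtype.val h1
  have h3 : g⁻¹ * (c : G) * g ∈ Subgroup.centralizer ({z} : Set G) := by
    rw [Subgroup.mem_centralizer_singleton_iff]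
    rw [← hs] at h2
    have h4 : (c : G) * (g * z * g⁻¹) = (g * z * g⁻¹) * (c : G) := by
      nth_rewrite 2 [h2]
      group
    calc g⁻¹ * (c : G) * g * z = g⁻¹ * ((c : G) * (g * z * g⁻¹)) * g := by group
      _ = g⁻¹ * ((g * z * g⁻¹) * (c : G)) * g := by rw [h4]
      _ = z * (g⁻¹ * (c : G) * g) := by group
  rw [mem_DD]
  refine ⟨MulAut.conjNormal (⟨g⁻¹ * (c : G) * g, h3⟩ : Subgroup.centralizer ({z} : Set G)) y, ?_⟩
  change g * (g⁻¹ * (c : G) * g * ((y : Subgroup.centralizer ({z} : Set G)) : G) * (g⁻¹ * (c : G) * g)⁻¹) * g⁻¹ =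
    (c : G) * ((x : Subgroup.centralizer ({z} : Set G)) : G) * (c : G)⁻¹
  rw [← hy]
  group

theorem DD_card {g : G} (hg : g * z * g⁻¹ ≠ z) {s : Q}
    (hs : g * z * g⁻¹ = ((s : Subgroup.centralizer ({z} : Set G)) : G)) : 8 ≤ Nat.card (DD Q g) := by
  have h := lm_of hset hψ
  have hsD : s ∈ DD Q g := mem_DD.2 ⟨zz hset, hs⟩
  have hsz : ¬ (s = 1 ∨ s = zz hset) := by
    rintro (h1 | h1)
    · rw [h1] at hs
      apply hg
      have h2 : g * z * g⁻¹ = 1 := hs
      have h3 : z = 1 := by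
        calc z = g⁻¹ * (g * z * g⁻¹) * g := by group
          _ = 1 := by rw [h2]; group
      rw [h3]; group
    · rw [h1] at hs
      exact hg hs
  have hab : ∀ x ∈ DD Q g, ∀ y ∈ DD Q g, x * y = y * x := by
    intro x hx y hy
    have h1 := DD_sq hset hψ hg hx
    have h2 := DD_sq hset hψ hg hy
    have h3 := DD_sq hset hψ hg ((DD Q g).mul_mem hx hy)
    calc x * y = (x * y)⁻¹ := eq_inv_of_mul_eq_one_right h3
      _ = y⁻¹ * x⁻¹ := mul_inv_rev _ _
      _ = y * x := by rw [← eq_inv_of_mul_eq_one_right h1, ← eq_inv_of_mul_eq_one_right h2]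
  have hle : DD Q g ≤ Subgroup.centralizer ({s} : Set Q) := by
    intro x hx
    rw [Subgroup.mem_centralizer_singleton_iff]
    exact hab x hx s hsD
  have hmem : ∀ x : Subgroup.centralizer ({s} : Set Q),
      g⁻¹ * (((x : Q) : Subgroup.centralizer ({z} : Set G)) : G) * g ∈ Subgroup.centralizer ({z} : Set G) := by
    intro x
    rw [Subgroup.mem_centralizer_singleton_iff]
    have h1 : (x : Q) * s = s * x := Subgroup.mem_centralizer_singleton_iff.1 x.2
    have h2 : (((x : Q) : Subgroup.centralizer ({z} : Set G)) : G) * ((s : Subgroup.centralizer ({z} : Set G)) : G) =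
        ((s : Subgroup.centralizer ({z} : Set G)) : G) * (((x : Q) : Subgroup.centralizer ({z} : Set G)) : G) :=
      congrArg (fun t : Q => ((t : Subgroup.centralizer ({z} : Set G)) : G)) h1
    rw [← hs] at h2
    calc g⁻¹ * (((x : Q) : Subgroup.centralizer ({z} : Set G)) : G) * g * z =
        g⁻¹ * ((((x : Q) : Subgroup.centralizer ({z} : Set G)) : G) * (g * z * g⁻¹)) * g := by group
      _ = g⁻¹ * (g * z * g⁻¹ * (((x : Q) : Subgroup.centralizer ({z} : Set G)) : G)) * g := by rw [h2]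
      _ = z * (g⁻¹ * (((x : Q) : Subgroup.centralizer ({z} : Set G)) : G) * g) := by group
  let φ : Subgroup.centralizer ({s} : Set Q) →* (Subgroup.centralizer ({z} : Set G)) ⧸ Q :=
    { toFun := fun x => QuotientGroup.mk ⟨_, hmem x⟩
      map_one' := by
        have : (⟨_, hmem 1⟩ : Subgroup.centralizer ({z} : Set G)) = 1 := by
          apply Subtype.ext
          change g⁻¹ * (1 : G) * g = 1
          group
        rw [this]; rfl
      map_mul' := by
        intro a b
        rw [← QuotientGroup.mk_mul]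
        congr 1
        apply Subtype.ext
        change g⁻¹ * ((((a : Q) : Subgroup.centralizer ({z} : Set G)) : G) * (((b : Q) : Subgroup.centralizer ({z} : Set G)) : G)) * g =
          g⁻¹ * (((a : Q) : Subgroup.centralizer ({z} : Set G)) : G) * g * (g⁻¹ * (((b : Q) : Subgroup.centralizer ({z} : Set G)) : G) * g)
        group }
  have hker : Nat.card φ.ker = Nat.card (DD Q g) := by
    have h1 : φ.ker = (DD Q g).subgroupOf (Subgroup.centralizer ({s} : Set Q)) := by
      ext x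
      rw [MonoidHom.mem_ker, Subgroup.mem_subgroupOf, mem_DD]
      change (QuotientGroup.mk (⟨_, hmem x⟩ : Subgroup.centralizer ({z} : Set G)) :
        (Subgroup.centralizer ({z} : Set G)) ⧸ Q) = 1 ↔ _
      rw [QuotientGroup.eq_one_iff]
      constructor
      · intro h2
        refine ⟨⟨_, h2⟩, ?_⟩
        change g * (g⁻¹ * (((x : Q) : Subgroup.centralizer ({z} : Set G)) : G) * g) * g⁻¹ = _
        group
      · rintro ⟨y, hy⟩
        have : (⟨_, hmem x⟩ : Subgroup.centralizer ({z} : Set G)) = y := by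
          apply Subtype.ext
          change g⁻¹ * (((x : Q) : Subgroup.centralizer ({z} : Set G)) : G) * g = _
          rw [← hy]; group
        rw [this]; exact y.2
    rw [h1]
    exact Nat.card_congr (Subgroup.subgroupOfEquivOfLe hle).toEquiv
  have h24 : Nat.card (Subgroup.centralizer ({s} : Set Q)) = 2 ^ 24 := by
    have h1 := Subgroup.card_mul_index (Subgroup.centralizer ({s} : Set Q))
    rw [cent_index h.dat (h.noncentral hsz), hset.2.2.2.1] at h1
    have h2 : (2 : ℕ) ^ (2 * 12 + 1) = 2 ^ 24 * 2 := by norm_num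
    rw [h2] at h1
    exact Nat.eq_of_mul_eq_mul_right (by norm_num) h1
  have hrange : Nat.card φ.range ∣ Nat.card Spor.Co1 := by
    rw [← Nat.card_congr e.toEquiv]
    exact Subgroup.card_subgroup_dvd_card _
  have hprod : Nat.card φ.ker * Nat.card φ.range = 2 ^ 24 := by
    rw [← h24]
    have h1 := Subgroup.card_eq_card_quotient_mul_card_subgroup φ.ker
    rw [h1, Nat.card_congr (QuotientGroup.quotientKerEquivRange φ).toEquiv, mul_comm]
  rw [hker] at hprod
  have hc := card_Co1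
  by_contra hlt
  push Not at hlt
  -- the order of `D` is a power of two
  obtain ⟨k, hk, hk2⟩ := (Nat.dvd_prime_pow Nat.prime_two).1 (Dvd.intro _ hprod)
  have hk3 : k ≤ 2 := by
    by_contra hcon
    push Not at hcon
    have : 2 ^ 3 ≤ 2 ^ k := Nat.pow_le_pow_right (by norm_num) hcon
    omega
  have h22 : 2 ^ 22 ∣ Nat.card φ.range := by
    refine ⟨2 ^ (2 - k), ?_⟩
    apply Nat.eq_of_mul_eq_mul_left (show 0 < 2 ^ k by positivity)
    rw [← hk2, hprod]
    rw [← mul_assoc, hk2, ← pow_add, ← pow_add]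
    congr 1
    omega
  have h22' := h22.trans hrange
  obtain ⟨m, hm⟩ := h22'
  rw [hm] at hc
  norm_num at hc
  omega

/-- conjugates of `z` in `Q` other than `z` are of type 4 -/
theorem type4 {g : G} {s : Q} (hs : g * z * g⁻¹ = ((s : Subgroup.centralizer ({z} : Set G)) : G))
    (hne : ((s : Subgroup.centralizer ({z} : Set G)) : G) ≠ z) :
    ∃ v : leechLattice, sqNorm v.1 = 64 ∧ ψ v = QuotientGroup.mk s := by
  have h := lm_of hset hψ
  have hg : g * z * g⁻¹ ≠ z := by rw [hs]; exact hne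
  have hsD : s ∈ DD Q g := mem_DD.2 ⟨zz hset, hs⟩
  obtain ⟨v, hv⟩ := h.surj s
  obtain ⟨y, w, hyw, hy⟩ := short v
  have hy' : ψ y = QuotientGroup.mk s := by
    have h1 := h.R_shift (w := -w) hv
    have e : v + (-w + -w) = y := by
      have : v = y + (w + w) := by rw [← hyw]; abel
      rw [this]; abel
    rw [e] at h1
    exact h1
  rcases norm_cases hy with h1 | h1 | h1 | h1
  · exfalso
    have h2 : y = 0 + 0 := by rw [h1]; simp
    rcases (h.ker _ _ hy').2 ⟨0, h2⟩ with h3 | h3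
    · apply hg
      rw [hs, h3]
      rw [h3] at hs
      have h4 : g * z * g⁻¹ = 1 := hs
      have h5 : z = 1 := by
        calc z = g⁻¹ * (g * z * g⁻¹) * g := by group
          _ = 1 := by rw [h4]; group
      exact h5.symm
    · apply hne; rw [h3]
  · exfalso
    have h2 := h.type2_D hy' h1 (DD Q g) hsD (fun x hx => DD_sq hset hψ hg hx)
      (fun f hf hfs x hx => DD_inv hs f hf hfs hx)
    have h3 := DD_card hset hψ hg hs
    have h4 : Nat.card (DD Q g) ≤ 4 := by
      classical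
      have h5 : ((DD Q g : Subgroup Q) : Set Q) ⊆ (({1, zz hset, s, s * zz hset} : Finset Q) : Set Q) := by
        intro x hx
        have := h2 x hx
        simp only [Finset.coe_insert, Finset.coe_singleton, Set.mem_insert_iff, Set.mem_singleton_iff]
        exact this
      have h6 := Set.ncard_le_ncard h5 (Finset.finite_toSet _)
      rw [Set.ncard_coe_finset] at h6
      exact le_trans h6 Finset.card_le_four
    omega
  · exfalso
    have h2 := (h.sq_iff hy').1 (DD_sq hset hψ hg hsD)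
    rw [h1] at h2
    norm_num at h2
  · exact ⟨y, h1, hy'⟩

end

end CfsgL.Mon
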