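import Cfsg.Agent.L.Mon.Quad
import Cfsg.Agent.L.Mon.Ext
/-!
Extraspecial groups whose central quotient is the Leech lattice modulo 2.
-/
set_option autoImplicit false
set_option maxHeartbeats 400000
namespace CfsgL.Mon
open Finset Cfsg CfsgL.Leech CfsgL.Golay CfsgL.GU CfsgL.Lat CfsgL.ExtraTwo
open scoped Pointwise

structure LM {Q : Type*} [Group Q] (z : Q) (Γ : Subgroup (MulAut Q)) (R : leechLattice → Q → Prop) :
    Prop where
  dat : Dat Q z
  mem : ∀ a : Q, (∀ b, b * a = a * b) → a = 1 ∨ a = z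
  sq : ∀ a : Q, a * a = 1 ∨ a * a = z
  add : ∀ v w x y, R v x → R w y → R (v + w) (x * y)
  ex : ∀ v, ∃ x, R v x
  surj : ∀ x, ∃ v, R v x
  ker : ∀ v x, R v x → ((x = 1 ∨ x = z) ↔ ∃ w, v = w + w)
  mulz : ∀ v x, R v x → R v (x * z)
  uniq : ∀ v x y, R v x → R v y → y = x ∨ y = x * z
  act : ∀ g : Co0, ∃ f ∈ Γ, ∀ v x, R v x → R (g • v) (f x)
  inn : ∀ y : Q, MulAut.conj y ∈ Γ

variable {Q : Type*} [Group Q] {z : Q} {Γ : Subgroup (MulAut Q)} {R : leechLattice → Q → Prop}

open Classical in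
noncomputable def sF (x : Q) : ZMod 2 := if x * x = 1 then 0 else 1
open Classical in
noncomputable def kF (x y : Q) : ZMod 2 := if x * y = y * x then 0 else 1

open Classical in
theorem sF_eq_zero {x : Q} : sF x = 0 ↔ x * x = 1 := by
  unfold sF
  split_ifs with h
  · simp [h]
  · simp [h]

open Classical in
theorem kF_eq_zero {x y : Q} : kF x y = 0 ↔ x * y = y * x := by
  unfold kF
  split_ifs with h
  · simp [h]
  · simp [h]

theorem sF_one {x : Q} (h : ¬ x * x = 1) : sF x = 1 := if_neg h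
theorem kF_one {x y : Q} (h : ¬ x * y = y * x) : kF x y = 1 := if_neg h

theorem kF_mul (D : Dat Q z) (x y w : Q) : kF x (y * w) = kF x y + kF x w := by
  by_cases h1 : x * y = y * x
  · by_cases h2 : x * w = w * x
    · rw [kF_eq_zero.2 h1, kF_eq_zero.2 h2, kF_eq_zero.2 (mul_cc' h1 h2)]; rfl
    · rw [kF_eq_zero.2 h1, kF_one h2, kF_one (sym (mul_cn h1.symm (sym h2)))]; rfl
  · by_cases h2 : x * w = w * x
    · rw [kF_one h1, kF_eq_zero.2 h2, kF_one (sym (mul_nc (sym h1) h2.symm))]; rfl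
    · rw [kF_one h1, kF_one h2, kF_eq_zero.2 (D.mul_nn' h1 h2)]; rfl

theorem sF_mul (D : Dat Q z) (hsq : ∀ a : Q, a * a = 1 ∨ a * a = z) (x y : Q) :
    sF (x * y) = sF x + sF y + kF x y := by
  have hz1 : ¬ z = 1 := D.ne
  by_cases hk : x * y = y * x
  · have e : x * y * (x * y) = (x * x) * (y * y) := by
      rw [mul_assoc, ← mul_assoc y x y, ← hk]; simp only [mul_assoc]
    rw [kF_eq_zero.2 hk]
    rcases hsq x with hx | hx <;> rcases hsq y with hy | hy
    · rw [sF_eq_zero.2 hx, sF_eq_zero.2 hy, sF_eq_zero.2 (by rw [e, hx, hy, one_mul])]; rfl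
    · have hy' : sF y = 1 := sF_one (by rw [hy]; exact hz1)
      have hxy : sF (x * y) = 1 := sF_one (by rw [e, hx, hy, one_mul]; exact hz1)
      rw [sF_eq_zero.2 hx, hy', hxy]; rfl
    · have hx' : sF x = 1 := sF_one (by rw [hx]; exact hz1)
      have hxy : sF (x * y) = 1 := sF_one (by rw [e, hx, hy, mul_one]; exact hz1)
      rw [sF_eq_zero.2 hy, hx', hxy]; rfl
    · have hx' : sF x = 1 := sF_one (by rw [hx]; exact hz1)
      have hy' : sF y = 1 := sF_one (by rw [hy]; exact hz1)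
      have hxy : sF (x * y) = 0 := sF_eq_zero.2 (by rw [e, hx, hy, D.zz])
      rw [hx', hy', hxy]; rfl
  · have h2 : y * x = x * y * z := (D.com y x).resolve_left (sym hk)
    have e : x * y * (x * y) = (x * x) * (y * y) * z := by
      rw [mul_assoc, ← mul_assoc y x y, h2]
      calc x * (x * y * z * y) = x * x * y * (z * y) := by simp only [mul_assoc]
        _ = x * x * y * (y * z) := by rw [D.cen y]
        _ = (x * x) * (y * y) * z := by simp only [mul_assoc]
    rw [kF_one hk]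
    rcases hsq x with hx | hx <;> rcases hsq y with hy | hy
    · have hxy : sF (x * y) = 1 := sF_one (by rw [e, hx, hy, one_mul, one_mul]; exact hz1)
      rw [sF_eq_zero.2 hx, sF_eq_zero.2 hy, hxy]; rfl
    · have hy' : sF y = 1 := sF_one (by rw [hy]; exact hz1)
      have hxy : sF (x * y) = 0 := sF_eq_zero.2 (by rw [e, hx, hy, one_mul, D.zz])
      rw [sF_eq_zero.2 hx, hy', hxy]; rfl
    · have hx' : sF x = 1 := sF_one (by rw [hx]; exact hz1)
      have hxy : sF (x * y) = 0 := sF_eq_zero.2 (by rw [e, hx, hy, mul_one, D.zz])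
      rw [sF_eq_zero.2 hy, hx', hxy]; rfl
    · have hx' : sF x = 1 := sF_one (by rw [hx]; exact hz1)
      have hy' : sF y = 1 := sF_one (by rw [hy]; exact hz1)
      have hxy : sF (x * y) = 1 := sF_one (by rw [e, hx, hy, D.zz, one_mul]; exact hz1)
      rw [hx', hy', hxy]; rfl

theorem z_comm' (D : Dat Q z) (x : Q) : kF x z = 0 := kF_eq_zero.2 (D.cen x)

theorem kF_symm (x y : Q) : kF x y = kF y x := by
  by_cases h : x * y = y * x
  · rw [kF_eq_zero.2 h, kF_eq_zero.2 h.symm]
  · rw [kF_one h, kF_one (sym h)]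

theorem sF_mulz (D : Dat Q z) (hsq : ∀ a : Q, a * a = 1 ∨ a * a = z) (x : Q) : sF (x * z) = sF x := by
  rw [sF_mul D hsq, z_comm' D, sF_eq_zero.2 D.zz, add_zero, add_zero]

theorem kF_mulz (D : Dat Q z) (x y : Q) : kF x (y * z) = kF x y := by
  rw [kF_mul D, z_comm' D, add_zero]

theorem kF_mulz' (D : Dat Q z) (x y : Q) : kF (x * z) y = kF x y := by
  rw [kF_symm, kF_mulz D, kF_symm]

namespace LM

variable (h : LM z Γ R)
include h

theorem sF_uniq {v : leechLattice} {x y : Q} (hx : R v x) (hy : R v y) : sF y = sF x := by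
  rcases h.uniq v x y hx hy with rfl | rfl
  · rfl
  · exact sF_mulz h.dat h.sq x

theorem kF_uniq {v w : leechLattice} {x y x' y' : Q} (hx : R v x) (hx' : R v x') (hy : R w y)
    (hy' : R w y') : kF x' y' = kF x y := by
  rcases h.uniq v x x' hx hx' with rfl | rfl <;> rcases h.uniq w y y' hy hy' with rfl | rfl
  · rfl
  · exact kF_mulz h.dat _ _
  · exact kF_mulz' h.dat _ _
  · rw [kF_mulz h.dat, kF_mulz' h.dat]

theorem R_shift {v w : leechLattice} {x : Q} (hx : R v x) : R (v + (w + w)) x := by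
  obtain ⟨y, hy⟩ := h.ex w
  have h1 := h.add _ _ _ _ hx (h.add _ _ _ _ hy hy)
  rcases h.sq y with h2 | h2
  · rw [h2, mul_one] at h1; exact h1
  · rw [h2] at h1
    have h3 := h.mulz _ _ h1
    rw [mul_assoc, h.dat.zz, mul_one] at h3
    exact h3

theorem R_eq {v w : leechLattice} {x : Q} (hv : R v x) (hw : R w x) : ∃ u, v = w + (u + u) := by
  obtain ⟨y, hy⟩ := h.ex (-w)
  have h1 := h.add _ _ _ _ hw hy
  rw [add_neg_cancel] at h1
  have h2 := (h.ker _ _ h1).2 ⟨0, (add_zero 0).symm⟩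
  have h3 := h.add _ _ _ _ hv hy
  obtain ⟨u, hu⟩ := (h.ker _ _ h3).1 h2
  refine ⟨u, ?_⟩
  rw [← hu]; abel

theorem R_zero : R 0 1 := by
  obtain ⟨x, hx⟩ := h.ex 0
  rcases (h.ker _ _ hx).2 ⟨0, (add_zero 0).symm⟩ with rfl | rfl
  · exact hx
  · have := h.mulz _ _ hx
    rwa [h.dat.zz] at this

theorem R_z : R 0 z := by
  have := h.mulz _ _ h.R_zero
  rwa [one_mul] at this

theorem R_same {v : leechLattice} {x y : Q} (hx : R v x) : R v y ↔ (y = x ∨ y = x * z) := by
  constructor
  · intro hy; exact h.uniq _ _ _ hx hy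
  · rintro (rfl | rfl)
    · exact hx
    · exact h.mulz _ _ hx

theorem R_neg {v : leechLattice} {x : Q} (hx : R v x) : R (-v) x := by
  have := h.R_shift (w := -v) hx
  have e : v + (-v + -v) = -v := by abel
  rwa [e] at this

theorem R_inv {v : leechLattice} {x : Q} (hx : R v x) : R v x⁻¹ := by
  rcases h.sq x with h1 | h1
  · rw [inv_eq_of_mul_eq_one_right h1]; exact hx
  · have : x⁻¹ = x * z := by
      apply inv_eq_of_mul_eq_one_right
      rw [← mul_assoc, h1, h.dat.zz]
    rw [this]; exact h.mulz _ _ hx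

theorem main_q (v : leechLattice) {x : Q} (hx : R v x) :
    sF x = ((sqNorm v.1 / 16 : ℤ) : ZMod 2) := by
  classical
  choose rep hrep using h.ex
  have hs : ∀ {v x}, R v x → sF x = sF (rep v) := fun hx => h.sF_uniq (hrep _) hx
  have hk : ∀ {v w x y}, R v x → R w y → kF x y = kF (rep v) (rep w) := fun hx hy =>
    h.kF_uniq (hrep _) hx (hrep _) hy
  rw [hs hx]
  apply quad_unique (fun v => sF (rep v)) (fun v w => kF (rep v) (rep w))
  · intro v w
    beta_reduce
    rw [← hs (h.add _ _ _ _ (hrep v) (hrep w)), sF_mul h.dat h.sq]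
  · intro v w u
    beta_reduce
    rw [← hk (hrep v) (h.add _ _ _ _ (hrep w) (hrep u)), kF_mul h.dat]
  · intro g v
    beta_reduce
    obtain ⟨f, -, hf⟩ := h.act g
    rw [← hs (hf _ _ (hrep v))]
    by_cases h1 : rep v * rep v = 1
    · rw [sF_eq_zero.2 h1, sF_eq_zero.2 (by rw [← map_mul, h1, map_one])]
    · rw [sF_one h1, sF_one (fun h2 => h1 (by
        rw [← map_mul] at h2
        exact (map_eq_one_iff f f.injective).1 h2))]
  · intro v w
    beta_reduce
    rw [← hs (h.R_shift (w := w) (hrep v))]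
  · by_contra hcon
    push Not at hcon
    have hall : ∀ x : Q, x * x = 1 := by
      intro x
      obtain ⟨v, hv⟩ := h.surj x
      have := hcon v
      rw [← hs hv] at this
      exact sF_eq_zero.1 this
    have hab : ∀ x y : Q, x * y = y * x := by
      intro x y
      have h1 := hall (x * y)
      have h2 := hall x
      have h3 := hall y
      calc x * y = (x * y)⁻¹ := eq_inv_of_mul_eq_one_right h1
        _ = y⁻¹ * x⁻¹ := mul_inv_rev _ _
        _ = y * x := by rw [← eq_inv_of_mul_eq_one_right h2, ← eq_inv_of_mul_eq_one_right h3]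
    -- all elements central, so every vector is a double
    let v0 : leechLattice := w2 none (some 1) 4 4 (Or.inl rfl) (Or.inl rfl)
    obtain ⟨x, hx⟩ := h.ex v0
    obtain ⟨w, hw⟩ := (h.ker _ _ hx).1 (h.mem x (fun b => hab b x))
    have h1 : sqNorm v0.1 = 32 := norm_v2 (by decide) 4 4
    have h2 : sqNorm v0.1 = 4 * sqNorm w.1 := by
      rw [hw, coe_add', norm_add, ← sqNorm_eq_dot]; ring
    have h3 := norm_dvd w.2
    omega

theorem sq_iff {v : leechLattice} {x : Q} (hx : R v x) : x * x = 1 ↔ (32 : ℤ) ∣ sqNorm v.1 := by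
  rw [← sF_eq_zero, h.main_q v hx, ZMod.intCast_zmod_eq_zero_iff_dvd]
  have := norm_dvd v.2
  omega

theorem comm_iff {v w : leechLattice} {x y : Q} (hx : R v x) (hy : R w y) :
    x * y = y * x ↔ (16 : ℤ) ∣ dotInt v.1 w.1 := by
  classical
  choose rep hrep using h.ex
  have hb := bil_eq (fun v => sF (rep v)) (fun v w => kF (rep v) (rep w)) (by
    intro v w
    beta_reduce
    rw [h.sF_uniq (h.add _ _ _ _ (hrep v) (hrep w)) (hrep (v + w)), sF_mul h.dat h.sq])
    (fun v => h.main_q v (hrep v)) v w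
  beta_reduce at hb
  rw [← kF_eq_zero, h.kF_uniq (hrep v) hx (hrep w) hy, hb, ZMod.intCast_zmod_eq_zero_iff_dvd]
  have := dot_dvd v.2 w.2
  omega

end LM

end CfsgL.Mon
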