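import Cfsg.Agent.L.Mon.En
import Cfsg.Agent.L.Lat.McL
import Cfsg.Agent.L.Orb.Misc
/-!
Singular subspaces of the Leech lattice modulo 2 invariant under a vector stabilizer: type 2.
-/
set_option autoImplicit false
set_option maxHeartbeats 400000
namespace CfsgL.Mon
open Finset Cfsg CfsgL.Leech CfsgL.Golay CfsgL.GU CfsgL.Lat CfsgL.ExtraTwo
open scoped Pointwise

theorem norm_odd : ∀ p, sqNorm (oddv p).1 = 32 := by decide +kernel

theorem sum_oct {O : Finset GolayPt} (hO : O ∈ octads) {w : GolayPt → ℤ} {p : GolayPt} (hp : p ∈ O)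
    (h2 : ∀ i ∈ O, i ≠ p → w i = 2) (h0 : ∀ i, i ∉ O → w i = 0) : ∑ i, w i = 14 + w p := by
  have h1 : ∑ i, w i = ∑ i ∈ O, w i := by
    symm
    apply Finset.sum_subset (Finset.subset_univ _)
    intro i _ hi
    exact h0 i hi
  rw [h1, ← Finset.sum_erase_add _ _ hp]
  have h3 : ∑ i ∈ O.erase p, w i = ∑ i ∈ O.erase p, (2 : ℤ) :=
    Finset.sum_congr rfl (fun i hi => h2 i (Finset.mem_of_mem_erase hi) (Finset.ne_of_mem_erase hi))
  rw [h3, Finset.sum_const, Finset.card_erase_of_mem hp, card_octad hO]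
  norm_num

/-- normal form for pairs of norm (64, 32) and inner product 16 -/
theorem nf64_32 {y u : leechLattice} (hy : sqNorm y.1 = 64) (hu : sqNorm u.1 = 32)
    (hd : dotInt y.1 u.1 = 16) {O0 : Finset GolayPt} (hO0 : O0 ∈ octads) {p0 : GolayPt} (hp0 : p0 ∈ O0) :
    ∃ g : Co0, (g • y).1 = Pi.single p0 8 ∧ (g • u).1 = cv O0 ∅ := by
  obtain ⟨g, hg⟩ := trans64 y hy p0
  have hwp : (g • u).1 p0 = 2 := by
    have h1 := co_dot g y u
    rw [hd, dot_comm, hg, dot_single] at h1
    omega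
  rcases shape32 (g • u).2 (by rw [co_norm, hu]) with ⟨i, j, hij, hi, hj, h0⟩ | ⟨O, hO, h2, h0⟩ | ⟨hodd, r, hr, h1⟩
  · exfalso
    by_cases h3 : p0 = i
    · rw [← h3] at hi; omega
    · by_cases h4 : p0 = j
      · rw [← h4] at hj; omega
      · have := h0 p0 h3 h4; omega
  · have hpO : p0 ∈ O := by
      by_contra hno
      have := h0 p0 hno
      omega
    obtain ⟨c, hc⟩ := sup_restrict7 (F := O.erase p0) (A := (O.erase p0).filter (fun i => (g • u).1 i = -2))
      (filter_subset _ _) (by rw [card_erase_of_mem hpO, card_octad hO])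
    have hci : ∀ i ∈ O, i ≠ p0 → (i ∈ c.1 ↔ (g • u).1 i = -2) := by
      intro i hi hne
      have h5 : i ∈ c.1 ∩ O.erase p0 ↔ i ∈ (O.erase p0).filter (fun i => (g • u).1 i = -2) := by rw [hc]
      rw [mem_inter, mem_filter, mem_erase] at h5
      constructor
      · intro h6; exact (h5.1 ⟨h6, hne, hi⟩).2
      · intro h6; exact (h5.2 ⟨⟨hne, hi⟩, h6⟩).1
    have hw2 : ∀ i ∈ O, i ≠ p0 → (sg c • (g • u)).1 i = 2 := by
      intro i hi hne
      rw [sg_at]
      split_ifs with h6
      · rw [(hci i hi hne).1 h6]; norm_num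
      · rcases h2 i hi with h7 | h7
        · exact h7
        · exact absurd ((hci i hi hne).2 h7) h6
    have hw0 : ∀ i, i ∉ O → (sg c • (g • u)).1 i = 0 := by
      intro i hi
      rw [sg_at, h0 i hi]
      split_ifs <;> norm_num
    have hpc : p0 ∉ c.1 := by
      intro hpc
      have h8 : (sg c • (g • u)).1 p0 = -2 := by rw [sg_at, if_pos hpc, hwp]
      obtain ⟨r, hr⟩ : ∃ r, r ∉ O := by
        by_contra hcon
        push Not at hcon
        have : O = Finset.univ := Finset.eq_univ_of_forall hcon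
        have h9 := card_octad hO
        rw [this, Finset.card_univ, card_pt] at h9
        omega
      have h9 := dot_dvd (sg c • (g • u)).2 (oddv r).2
      have h10 : dotInt (sg c • (g • u)).1 (oddv r).1 = ∑ i, (sg c • (g • u)).1 i + (-3 - 1) * (sg c • (g • u)).1 r :=
        dot_v1 _ r (-3)
      rw [h10, sum_oct hO hpO hw2 hw0, h8, hw0 r hr] at h9
      omega
    have hwp' : (sg c • (g • u)).1 p0 = 2 := by rw [sg_at, if_neg hpc, hwp]
    obtain ⟨σ, hσ, hσO, hσp⟩ := CfsgL.Orb.oct_sub_trans (s := {p0}) (s' := {p0}) hO hO0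
      (by rw [singleton_subset_iff]; exact hpO) (by rw [singleton_subset_iff]; exact hp0) rfl
      (by rw [card_singleton]; norm_num)
    have hσp' : σ p0 = p0 := by
      rw [Finset.smul_finset_singleton, Finset.singleton_inj] at hσp
      exact hσp
    refine ⟨pm ⟨σ, hσ⟩ * (sg c * g), ?_, ?_⟩
    · funext k
      obtain ⟨i, rfl⟩ := σ.surjective k
      rw [mul_smul, mul_smul]
      have h11 := pm_at ⟨σ, hσ⟩ (sg c • (g • y)) i
      change (pm ⟨σ, hσ⟩ • sg c • g • y).1 (σ i) = _
      rw [show (pm ⟨σ, hσ⟩ • sg c • g • y).1 (σ i) = (sg c • g • y).1 i from h11, sg_at, hg]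
      by_cases hi : i = p0
      · rw [hi, hσp', if_neg hpc]
      · have : σ i ≠ p0 := fun h => hi (σ.injective (h.trans hσp'.symm))
        rw [Pi.single_eq_of_ne hi, Pi.single_eq_of_ne this]
        split_ifs <;> norm_num
    · funext k
      obtain ⟨i, rfl⟩ := σ.surjective k
      rw [mul_smul, mul_smul]
      have h11 := pm_at ⟨σ, hσ⟩ (sg c • (g • u)) i
      rw [show (pm ⟨σ, hσ⟩ • sg c • g • u).1 (σ i) = (sg c • g • u).1 i from h11]
      have hmem : σ i ∈ O0 ↔ i ∈ O := by
        rw [← hσO]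
        exact Finset.smul_mem_smul_finset_iff σ
      by_cases hi : i ∈ O
      · rw [cv_mid (hmem.2 hi) (notMem_empty _)]
        by_cases hip : i = p0
        · rw [hip, hwp']
        · exact hw2 i hi hip
      · rw [cv_out (fun h => hi (hmem.1 h)), hw0 i hi]
  · exfalso
    have := leechM.parity (g • u).2 p0 none
    omega

structure Good (M : AddSubgroup leechLattice) (u : leechLattice) : Prop where
  two : ∀ w : leechLattice, w + w ∈ M
  mem : u ∈ M
  nrm : sqNorm u.1 = 32
  inv : ∀ g : Co0, g • u = u → ∀ v ∈ M, g • v ∈ M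
  sing : ∀ v ∈ M, (32 : ℤ) ∣ sqNorm v.1

theorem iso_of_sing {M : AddSubgroup leechLattice} (sing : ∀ v ∈ M, (32 : ℤ) ∣ sqNorm v.1)
    {a b : leechLattice} (ha : a ∈ M) (hb : b ∈ M) : (16 : ℤ) ∣ dotInt a.1 b.1 := by
  have h1 := sing _ (M.add_mem ha hb)
  rw [coe_add', norm_add] at h1
  have h2 := sing _ ha
  have h3 := sing _ hb
  omega

namespace Good

variable {M : AddSubgroup leechLattice} {u : leechLattice}

/-- transport -/
def tr (M : AddSubgroup leechLattice) (g : Co0) : AddSubgroup leechLattice := M.comap (cohom g⁻¹)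

theorem mem_tr {g : Co0} {v : leechLattice} : v ∈ tr M g ↔ g⁻¹ • v ∈ M := Iff.rfl

theorem smul_mem_tr {g : Co0} {v : leechLattice} (hv : v ∈ M) : g • v ∈ tr M g := by
  rw [mem_tr, inv_smul_smul]; exact hv

theorem trans (h : Good M u) (g : Co0) : Good (tr M g) (g • u) := by
  refine ⟨?_, smul_mem_tr h.mem, by rw [co_norm, h.nrm], ?_, ?_⟩
  · intro w
    rw [mem_tr, co_add]
    exact h.two _
  · intro k hk v hv
    rw [mem_tr] at hv ⊢
    have h1 := h.inv (g⁻¹ * k * g) (by rw [mul_smul, mul_smul, hk, inv_smul_smul]) _ hv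
    rw [mul_smul, mul_smul, smul_inv_smul] at h1
    exact h1
  · intro v hv
    have := h.sing _ (mem_tr.1 hv)
    rwa [co_norm] at this

theorem type2 (h : Good M u) {y : leechLattice} (hy : y ∈ M) (hn : sqNorm y.1 = 32) :
    y = u ∨ y = -u := by
  have hiso := iso_of_sing h.sing h.mem hy
  have h1 : 0 ≤ sqNorm (u + y).1 := by unfold sqNorm; positivity
  have h2 : 0 ≤ sqNorm (u - y).1 := by unfold sqNorm; positivity
  have e1 : sqNorm (u + y).1 = 64 + 2 * dotInt u.1 y.1 := by
    rw [coe_add', norm_add, h.nrm, hn]; ring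
  have e2 : sqNorm (u - y).1 = 64 - 2 * dotInt u.1 y.1 := by
    rw [coe_sub', norm_sub, h.nrm, hn]; ring
  have hzero : ∀ v : leechLattice, sqNorm v.1 = 0 → v = 0 := by
    intro v hv
    by_contra hne
    have := norm_min v.2 (fun e => hne (Subtype.ext e))
    omega
  have hcases : dotInt u.1 y.1 = 32 ∨ dotInt u.1 y.1 = -32 ∨ dotInt u.1 y.1 = 16 ∨
      dotInt u.1 y.1 = -16 ∨ dotInt u.1 y.1 = 0 := by omega
  obtain ⟨p, q, r, hpq, hpr, hqr⟩ := two_pts'
  -- general contradiction principle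
  have key : ∀ y : leechLattice, y ∈ M → dotInt u.1 y.1 = -16 → sqNorm y.1 = 32 → False := by
    intro y hy hd hn
    obtain ⟨g, hg1, hg2⟩ := nf16 h.nrm hn hd hpq hpr hqr
    obtain ⟨c, hc⟩ := sup_restrict7 (F := {p, q, r}) (A := {q, r}) (by
      intro x hx; simp only [mem_insert, mem_singleton] at hx ⊢; tauto)
      (by exact le_trans card_le_three (by norm_num))
    have hcm : ∀ i ∈ ({p, q, r} : Finset GolayPt), (i ∈ c.1 ↔ i ∈ ({q, r} : Finset GolayPt)) := by
      intro i hi
      rw [← hc, mem_inter]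
      exact ⟨fun h => ⟨h, hi⟩, fun h => h.1⟩
    have hcp : p ∉ c.1 := by
      rw [hcm p (by simp)]; simp [hpq, hpr]
    have hcq : q ∈ c.1 := by rw [hcm q (by simp)]; simp
    have hcr : r ∈ c.1 := by rw [hcm r (by simp)]; simp
    have hop : (oddv p).1 p = -3 := if_pos rfl
    have hoq : (oddv p).1 q = 1 := if_neg hpq.symm
    have hor : (oddv p).1 r = 1 := if_neg hpr.symm
    have hyp : (sg c • oddv p).1 p = -3 := by rw [sg_at, if_neg hcp, hop]
    have hyq : (sg c • oddv p).1 q = -1 := by rw [sg_at, if_pos hcq, hoq]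
    have hyr : (sg c • oddv p).1 r = -1 := by rw [sg_at, if_pos hcr, hor]
    have hno : sqNorm (oddv p).1 = 32 := norm_odd p
    have hd2 : dotInt u.1 (g⁻¹ • (sg c • oddv p)).1 = -16 := by
      rw [← co_dot g, smul_inv_smul, hg1, dot_comm, dot_v2, hyp, hyq]; norm_num
    obtain ⟨k, hk1, hk2⟩ := trans_of_nf2 (nf16 h.nrm hn hd hpq hpr hqr)
      (nf16 h.nrm (w := g⁻¹ • (sg c • oddv p)) (by rw [co_norm, co_norm, hno]) hd2 hpq hpr hqr)
    have hy' := h.inv k hk1 y hy
    rw [hk2] at hy'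
    have := iso_of_sing h.sing hy hy'
    rw [← co_dot g, smul_inv_smul, hg2, dot_comm, dot_v2, hyp, hyr] at this
    omega
  rcases hcases with hd | hd | hd | hd | hd
  · left
    have := hzero (u - y) (by omega)
    exact (sub_eq_zero.1 this).symm
  · right
    have := hzero (u + y) (by omega)
    exact (neg_eq_of_add_eq_zero_right this).symm
  · exfalso
    refine key (-y) (M.neg_mem hy) ?_ ?_
    · have e : dotInt u.1 (-y).1 = - dotInt u.1 y.1 := by
        unfold dotInt
        rw [← Finset.sum_neg_distrib]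
        apply Finset.sum_congr rfl
        intro i _
        change u.1 i * (- y.1 i) = _
        ring
      rw [e, hd]
    · have e : sqNorm (-y).1 = sqNorm y.1 := by
        unfold sqNorm
        apply Finset.sum_congr rfl
        intro i _
        change (- y.1 i) ^ 2 = _
        ring
      rw [e, hn]
  · exact (key y hy hd hn).elim
  · exfalso
    obtain ⟨g, hg1, hg2⟩ := nf0 h.nrm hn hd hpq
    obtain ⟨c, hc⟩ := sup_restrict7 (F := {p, q}) (A := {q}) (by
      intro x hx; simp only [mem_insert, mem_singleton] at hx ⊢; tauto)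
      (by exact le_trans card_le_two (by norm_num))
    have hcm : ∀ i ∈ ({p, q} : Finset GolayPt), (i ∈ c.1 ↔ i ∈ ({q} : Finset GolayPt)) := by
      intro i hi
      rw [← hc, mem_inter]
      exact ⟨fun h => ⟨h, hi⟩, fun h => h.1⟩
    have hcp : p ∉ c.1 := by
      rw [hcm p (by simp)]; simp [hpq]
    have hcq : q ∈ c.1 := by rw [hcm q (by simp)]; simp
    have hop : (oddv r).1 p = 1 := if_neg hpr
    have hoq : (oddv r).1 q = 1 := if_neg hqr
    have hyp : (sg c • oddv r).1 p = 1 := by rw [sg_at, if_neg hcp, hop]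
    have hyq : (sg c • oddv r).1 q = -1 := by rw [sg_at, if_pos hcq, hoq]
    have hno : sqNorm (oddv r).1 = 32 := norm_odd r
    have hd2 : dotInt u.1 (g⁻¹ • (sg c • oddv r)).1 = 0 := by
      rw [← co_dot g, smul_inv_smul, hg1, dot_comm, dot_v2, hyp, hyq]; norm_num
    obtain ⟨k, hk1, hk2⟩ := trans_of_nf2 (nf0 h.nrm hn hd hpq)
      (nf0 h.nrm (w := g⁻¹ • (sg c • oddv r)) (by rw [co_norm, co_norm, hno]) hd2 hpq)
    have hy' := h.inv k hk1 y hy
    rw [hk2] at hy'
    have := iso_of_sing h.sing hy hy'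
    rw [← co_dot g, smul_inv_smul, hg2, dot_comm, dot_v2, hyp, hyq] at this
    omega

end Good

end CfsgL.Mon
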