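import Cfsg.Agent.L.Mon.Lat2
/-!
Singular subspaces of the Leech lattice modulo 2 invariant under a vector stabilizer: type 2, continued.
-/
set_option autoImplicit false
set_option maxHeartbeats 400000
namespace CfsgL.Mon
open Finset Cfsg CfsgL.Leech CfsgL.Golay CfsgL.GU CfsgL.Lat CfsgL.ExtraTwo
open scoped Pointwise

theorem e8_congr (i j : GolayPt) : ∃ w : leechLattice, e8 i = e8 j + (w + w) := by
  by_cases hij : i = j
  · exact ⟨0, by rw [hij]; simp⟩
  · refine ⟨w2 i j 4 (-4) (Or.inl rfl) (Or.inr rfl), ?_⟩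
    apply Subtype.ext
    funext k
    change (e8 i).1 k = (e8 j).1 k + (v2 i j 4 (-4) k + v2 i j 4 (-4) k)
    rw [v2_apply hij]
    by_cases h1 : k = i
    · rw [h1, e8_same, e8_ne hij, if_pos rfl]; norm_num
    · rw [e8_ne h1, if_neg h1]
      by_cases h2 : k = j
      · rw [h2, e8_same, if_pos rfl]; norm_num
      · rw [e8_ne h2, if_neg h2]; norm_num

theorem e8_neg (j : GolayPt) : ∃ w : leechLattice, - e8 j = e8 j + (w + w) := ⟨- e8 j, by abel⟩

theorem e8_all {M : AddSubgroup leechLattice} (two : ∀ w : leechLattice, w + w ∈ M) {p : GolayPt}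
    (hp : e8 p ∈ M) (i : GolayPt) : e8 i ∈ M := by
  obtain ⟨w, hw⟩ := e8_congr i p
  rw [hw]
  exact M.add_mem hp (two w)

theorem even_of_iso {M : AddSubgroup leechLattice} (two : ∀ w : leechLattice, w + w ∈ M)
    (sing : ∀ v ∈ M, (32 : ℤ) ∣ sqNorm v.1) {p : GolayPt}
    (hp : e8 p ∈ M) {v : leechLattice} (hv : v ∈ M) (i : GolayPt) : (2 : ℤ) ∣ v.1 i := by
  have h1 := iso_of_sing sing hv (e8_all two hp i)
  rw [dot_e8] at h1
  omega

namespace Good

variable {M : AddSubgroup leechLattice} {u : leechLattice}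

/-- the key vector `(5, -3, -3, 1, …)` -/
theorem no_oct (h : Good M u) {O : Finset GolayPt} (hO : O ∈ octads) (hu : u.1 = cv O ∅) {p0 : GolayPt}
    (hp0 : p0 ∈ O) (he : e8 p0 ∈ M) : False := by
  -- three points outside `O`
  obtain ⟨p, q, r, hp, hq, hr, hpq, hpr, hqr⟩ : ∃ p q r, p ∉ O ∧ q ∉ O ∧ r ∉ O ∧ p ≠ q ∧ p ≠ r ∧ q ≠ r := by
    have h1 : 2 < (Oᶜ).card := by
      rw [card_compl, card_pt, card_octad hO]; norm_num
    obtain ⟨a, b, c, ha, hb, hc, h2, h3, h4⟩ := Finset.two_lt_card_iff.1 h1
    exact ⟨a, b, c, mem_compl.1 ha, mem_compl.1 hb, mem_compl.1 hc, h2, h3, h4⟩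
  let x := w2 p r 4 (-4) (Or.inl rfl) (Or.inr rfl)
  let y := oddv q + x
  have hx : x.1 = v2 p r 4 (-4) := rfl
  have hoq : ∀ i, i ≠ q → (oddv q).1 i = 1 := fun i hi => if_neg hi
  have hny : sqNorm y.1 = 64 := by
    rw [show y = oddv q + x from rfl, coe_add', norm_add, norm_odd, hx, norm_v2 hpr, dot_v2,
      hoq p hpq, hoq r hqr.symm]
    norm_num
  have hdy : dotInt y.1 u.1 = 16 := by
    rw [hu, dot_cv _ (empty_subset _)]
    have h1 : ∀ i ∈ O, y.1 i = 1 := by
      intro i hi
      have h2 : i ≠ p := fun h => hp (h ▸ hi)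
      have h3 : i ≠ q := fun h => hq (h ▸ hi)
      have h4 : i ≠ r := fun h => hr (h ▸ hi)
      change (oddv q).1 i + v2 p r 4 (-4) i = 1
      rw [hoq i h3, v2_apply hpr, if_neg h2, if_neg h4, add_zero]
    rw [Finset.sum_congr rfl h1, Finset.sum_const, card_octad hO]
    simp
  have he8 : dotInt (e8 p0).1 u.1 = 16 := by
    rw [dot_comm, dot_e8, hu, cv_mid hp0 (notMem_empty _)]; norm_num
  obtain ⟨k, hk1, hk2⟩ := trans_of_nf2 (v := e8 p0) (w := u) (v' := y) (w' := u)
    (nf64_32 (norm_e8 p0) h.nrm he8 hO hp0)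
    (nf64_32 hny h.nrm hdy hO hp0)
  have hyM := h.inv k hk2 _ he
  rw [hk1] at hyM
  have h5 := h.sing _ (M.sub_mem hyM (e8_all h.two he p))
  rw [coe_sub', norm_sub, hny, norm_e8, dot_e8] at h5
  have h6 : y.1 p = 5 := by
    change (oddv q).1 p + v2 p r 4 (-4) p = 5
    rw [hoq p hpq, v2_apply hpr, if_pos rfl]; norm_num
  rw [h6] at h5
  norm_num at h5

theorem no64 (h : Good M u) {y : leechLattice} (hy : y ∈ M) (hn : sqNorm y.1 = 64) : False := by
  obtain ⟨g, hg⟩ := trans64 y hn none
  have h' := h.trans g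
  have he : e8 none ∈ tr M g := by
    have h1 : e8 none = g • y := Subtype.ext hg.symm
    rw [h1]
    exact smul_mem_tr hy
  generalize tr M g = M' at h' he
  generalize g • u = u' at h'
  have hev : ∀ i, (2 : ℤ) ∣ u'.1 i := fun i => even_of_iso h'.two h'.sing he h'.mem i
  rcases shape32 u'.2 h'.nrm with ⟨i, j, hij, hi, hj, h0⟩ | ⟨O, hO, h2, h0⟩ | ⟨hodd, r, hr, h1⟩
  · -- `u' ∓ 8 e_i`
    have hei := e8_all h'.two he i
    have key : ∀ s : ℤ, (s = 1 ∨ s = -1) → u'.1 i = 4 * s → False := by
      intro s hs hui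
      have hm : u' - s • e8 i ∈ M' := M'.sub_mem h'.mem (M'.zsmul_mem hei s)
      have hss : s * s = 1 := by rcases hs with rfl | rfl <;> norm_num
      have hd : dotInt u'.1 (s • e8 i).1 = 32 := by
        have : dotInt u'.1 (s • e8 i).1 = s * dotInt u'.1 (e8 i).1 := by
          unfold dotInt
          rw [Finset.mul_sum]
          apply Finset.sum_congr rfl
          intro k _
          change u'.1 k * (s • (e8 i).1 k) = _
          rw [smul_eq_mul]; ring
        rw [this, dot_e8, hui]
        linear_combination 32 * hss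
      have hnn : sqNorm (s • e8 i).1 = 64 := by
        have : sqNorm (s • e8 i).1 = s * s * sqNorm (e8 i).1 := by
          unfold sqNorm
          rw [Finset.mul_sum]
          apply Finset.sum_congr rfl
          intro k _
          change (s • (e8 i).1 k) ^ 2 = _
          rw [smul_eq_mul]; ring
        rw [this, hss, norm_e8]; norm_num
      have hn' : sqNorm (u' - s • e8 i).1 = 32 := by
        rw [coe_sub', norm_sub, h'.nrm, hd, hnn]; norm_num
      rcases h'.type2 hm hn' with h3 | h3
      · have h4 : s • e8 i = 0 := by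
          have := sub_eq_self.1 h3
          exact this
        have h5 : (s • e8 i).1 i = 0 := by rw [h4]; rfl
        change s • (e8 i).1 i = 0 at h5
        rw [e8_same, smul_eq_mul] at h5
        rcases hs with rfl | rfl <;> omega
      · have h5 : (u' - s • e8 i).1 j = (-u').1 j := by rw [h3]
        change u'.1 j - s • (e8 i).1 j = - u'.1 j at h5
        rw [e8_ne hij.symm, smul_zero, sub_zero] at h5
        omega
    rcases hi with hi | hi
    · exact key 1 (Or.inl rfl) (by rw [hi]; norm_num)
    · exact key (-1) (Or.inr rfl) (by rw [hi]; norm_num)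
  · -- octad type
    obtain ⟨i, hiO⟩ : ∃ i, i ∈ O := by
      have := card_octad hO
      exact Finset.card_pos.1 (by omega)
    have key : ∀ s : ℤ, (s = 1 ∨ s = -1) → u'.1 i = 2 * s → False := by
      intro s hs hui
      have hss : s * s = 1 := by rcases hs with rfl | rfl <;> norm_num
      have hd : dotInt (s • e8 i).1 u'.1 = 16 := by
        have : dotInt (s • e8 i).1 u'.1 = s * dotInt u'.1 (e8 i).1 := by
          unfold dotInt
          rw [Finset.mul_sum]
          apply Finset.sum_congr rfl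
          intro k _
          change (s • (e8 i).1 k) * u'.1 k = _
          rw [smul_eq_mul]; ring
        rw [this, dot_e8, hui]
        linear_combination 16 * hss
      have hnn : sqNorm (s • e8 i).1 = 64 := by
        have : sqNorm (s • e8 i).1 = s * s * sqNorm (e8 i).1 := by
          unfold sqNorm
          rw [Finset.mul_sum]
          apply Finset.sum_congr rfl
          intro k _
          change (s • (e8 i).1 k) ^ 2 = _
          rw [smul_eq_mul]; ring
        rw [this, hss, norm_e8]; norm_num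
      obtain ⟨k, hk1, hk2⟩ := nf64_32 hnn h'.nrm hd hO hiO
      have h'' := h'.trans k
      have he' : e8 i ∈ tr M' k := by
        have h1 : e8 i = k • (s • e8 i) := Subtype.ext hk1.symm
        rw [h1]
        exact smul_mem_tr (M'.zsmul_mem (e8_all h'.two he i) s)
      exact h''.no_oct hO hk2 hiO he'
    rcases h2 i hiO with h3 | h3
    · exact key 1 (Or.inl rfl) (by rw [h3]; norm_num)
    · exact key (-1) (Or.inr rfl) (by rw [h3]; norm_num)
  · exact hodd (hev none)

/-- the final statement for type 2 -/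
theorem final (h : Good M u) {v : leechLattice} (hv : v ∈ M) :
    (∃ w, v = w + w) ∨ ∃ w, v = u + (w + w) := by
  obtain ⟨y, z, hyz, hy⟩ := short v
  have hvy : v = y + (z + z) := by rw [← hyz]; abel
  have hyM : y ∈ M := by
    have : y = v - (z + z) := by rw [hvy]; abel
    rw [this]; exact M.sub_mem hv (h.two z)
  rcases norm_cases hy with h1 | h1 | h1 | h1
  · left; exact ⟨z, by rw [hvy, h1, zero_add]⟩
  · rcases h.type2 hyM h1 with h2 | h2
    · right; exact ⟨z, by rw [hvy, h2]⟩
    · right; refine ⟨z - u, ?_⟩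
      rw [hvy, h2]; abel
  · have := h.sing _ hyM
    rw [h1] at this; norm_num at this
  · exact (h.no64 hyM h1).elim

end Good

end CfsgL.Mon
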