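import Cfsg.Agent.L.Lat.Misc
import Cfsg.Agent.L.Lat.Pairs
/-!
The unique `Co0`-invariant quadratic form on the Leech lattice modulo 2.
-/
set_option autoImplicit false
set_option maxHeartbeats 400000
namespace CfsgL.Mon
open Finset Cfsg CfsgL.Leech CfsgL.Golay CfsgL.GU CfsgL.Lat
open scoped Pointwise

/-- the vector `(-3, 1²³)` -/
def oddv (p : GolayPt) : leechLattice := ⟨fun i => if i = p then (-3 : ℤ) else 1, odd_mem p⟩

theorem norm_shift {y z : leechLattice} : (32 : ℤ) ∣ sqNorm (y + (z + z)).1 - sqNorm y.1 := by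
  rw [coe_add', norm_add, coe_add', norm_add, dot_add_r]
  have h1 := dot_dvd y.2 z.2
  have h2 := norm_dvd z.2
  have h3 : dotInt z.1 z.1 = sqNorm z.1 := (sqNorm_eq_dot _).symm
  rw [h3]
  obtain ⟨a, ha⟩ := h1
  obtain ⟨c, hc⟩ := h2
  rw [ha, hc]
  exact ⟨a + 2 * c, by ring⟩

theorem quad_unique (q : leechLattice → ZMod 2) (b : leechLattice → leechLattice → ZMod 2)
    (hqb : ∀ v w, q (v + w) = q v + q w + b v w) (hb : ∀ v w u, b v (w + u) = b v w + b v u)
    (hinv : ∀ (g : Co0) (v : leechLattice), q (g • v) = q v)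
    (h2 : ∀ v w, q (v + (w + w)) = q v) (hne : ∃ v, q v ≠ 0) (v : leechLattice) :
    q v = ((sqNorm v.1 / 16 : ℤ) : ZMod 2) := by
  have q32 : ∀ v w : leechLattice, sqNorm v.1 = 32 → sqNorm w.1 = 32 → q v = q w := by
    intro v w hv hw
    obtain ⟨g, rfl⟩ := trans32 hv hw
    exact (hinv g v).symm
  have q48 : ∀ v w : leechLattice, sqNorm v.1 = 48 → sqNorm w.1 = 48 → q v = q w := by
    intro v w hv hw
    obtain ⟨g, rfl⟩ := trans48 hv hw
    exact (hinv g v).symm
  have q64 : ∀ v w : leechLattice, sqNorm v.1 = 64 → sqNorm w.1 = 64 → q v = q w := by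
    intro v w hv hw
    obtain ⟨g, rfl⟩ := trans64' hv hw
    exact (hinv g v).symm
  have hsub : ∀ v w, q (v - w) = q (v + w) := by
    intro v w
    have := h2 (v - w) w
    rw [← this]
    congr 1
    abel
  let r := oddv (some 0)
  let s := oddv none
  let v0 : leechLattice := w2 none (some 1) 4 4 (Or.inl rfl) (Or.inl rfl)
  let v1 : leechLattice := w2 (some 1) (some 2) 4 4 (Or.inl rfl) (Or.inl rfl)
  have nr : sqNorm r.1 = 32 := by decide +kernel
  have ns : sqNorm s.1 = 32 := by decide +kernel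
  have nv0 : sqNorm v0.1 = 32 := norm_v2 (by decide) 4 4
  have nv1 : sqNorm v1.1 = 32 := norm_v2 (by decide) 4 4
  have nu : sqNorm (r - s).1 = 32 := by
    rw [coe_sub', norm_sub, nr, ns]
    have : dotInt r.1 s.1 = 16 := by decide +kernel
    rw [this]; norm_num
  have d0r : dotInt v0.1 r.1 = 8 := by
    rw [show v0.1 = v2 none (some 1) 4 4 from rfl, dot_comm, dot_v2]
    decide +kernel
  have d0s : dotInt v0.1 s.1 = -8 := by
    rw [show v0.1 = v2 none (some 1) 4 4 from rfl, dot_comm, dot_v2]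
    decide +kernel
  have d1r : dotInt v1.1 r.1 = 8 := by
    rw [show v1.1 = v2 (some 1) (some 2) 4 4 from rfl, dot_comm, dot_v2]
    decide +kernel
  have d1s : dotInt v1.1 s.1 = 8 := by
    rw [show v1.1 = v2 (some 1) (some 2) 4 4 from rfl, dot_comm, dot_v2]
    decide +kernel
  have n0r : sqNorm (v0 - r).1 = 48 := by rw [coe_sub', norm_sub, nv0, nr, d0r]; norm_num
  have n0s : sqNorm (v0 + s).1 = 48 := by rw [coe_add', norm_add, nv0, ns, d0s]; norm_num
  have n1r : sqNorm (v1 - r).1 = 48 := by rw [coe_sub', norm_sub, nv1, nr, d1r]; norm_num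
  have n1s : sqNorm (v1 - s).1 = 48 := by rw [coe_sub', norm_sub, nv1, ns, d1s]; norm_num
  have n0u : sqNorm (v0 - (r - s)).1 = 32 := by
    rw [coe_sub', norm_sub, nv0, nu, coe_sub', dot_sub_r, d0r, d0s]; norm_num
  have n1u : sqNorm (v1 + (r - s)).1 = 64 := by
    rw [coe_add', norm_add, nv1, nu, coe_sub', dot_sub_r, d1r, d1s]; norm_num
  -- relations
  have e1 : b v0 r = b v0 s + b v0 (r - s) := by
    rw [← hb]; congr 1; abel
  have e2 : b v1 r = b v1 s + b v1 (r - s) := by
    rw [← hb]; congr 1; abel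
  have f1 := hqb v0 r
  have f2 := hqb v0 s
  have f3 := hqb v0 (r - s)
  have f4 := hqb v1 r
  have f5 := hqb v1 s
  have f6 := hqb v1 (r - s)
  rw [← hsub] at f1 f3 f4 f5
  have g1 := q32 r v0 nr nv0
  have g2 := q32 s v0 ns nv0
  have g3 := q32 (r - s) v0 nu nv0
  have g4 := q32 v1 v0 nv1 nv0
  have g5 := q32 (v0 - (r - s)) v0 n0u nv0
  have k1 := q48 (v0 + s) (v0 - r) n0s n0r
  have k2 := q48 (v1 - r) (v0 - r) n1r n0r
  have k3 := q48 (v1 - s) (v0 - r) n1s n0r
  rw [g1] at f1
  rw [k1, g2] at f2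
  rw [g5, g3] at f3
  rw [k2, g4, g1] at f4
  rw [k3, g4, g2] at f5
  rw [g4, g3] at f6
  have hα : q v0 = 0 := by
    generalize q v0 = a at *
    generalize q (v0 - r) = c at *
    generalize b v0 r = x at *
    generalize b v0 s = y at *
    generalize b v0 (r - s) = z at *
    clear hqb hb hinv h2 q32 q48 q64 hsub g1 g2 g3 g4 g5 k1 k2 k3 n1u n0u n1s n1r n0s n0r f4 f5 f6 e2 hne
    revert a c x y z
    decide
  have hγ : q (v1 + (r - s)) = 0 := by
    rw [hα] at f4 f5 f6
    generalize q (v0 - r) = c at *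
    generalize b v1 r = x at *
    generalize b v1 s = y at *
    generalize b v1 (r - s) = z at *
    generalize q (v1 + (r - s)) = a at *
    clear hqb hb hinv h2 q32 q48 q64 hsub g1 g2 g3 g4 g5 k1 k2 k3 n1u n0u n1s n1r n0s n0r f1 f2 f3 e1 hne hα
    revert a c x y z
    decide
  have h0 : q 0 = 0 := by
    have h3 := hqb 0 0
    have h4 := hb 0 0 0
    rw [add_zero] at h3 h4
    generalize q 0 = a at *
    generalize b 0 0 = c at *
    clear * - h3 h4
    revert a c
    decide
  -- general values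
  have c32 : ∀ y : leechLattice, sqNorm y.1 = 32 → q y = 0 := fun y hy => by
    rw [q32 y v0 hy nv0, hα]
  have c64 : ∀ y : leechLattice, sqNorm y.1 = 64 → q y = 0 := fun y hy => by
    rw [q64 y _ hy n1u, hγ]
  have hβ : q (v0 - r) = 1 := by
    by_contra hcon
    have hc0 : q (v0 - r) = 0 := by
      generalize q (v0 - r) = c at *
      clear * - hcon
      revert c; decide
    obtain ⟨v, hv⟩ := hne
    apply hv
    obtain ⟨y, z, hyz, hy⟩ := short v
    have hvy : v = y + (z + z) := by rw [← hyz]; abel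
    rw [hvy, h2]
    rcases norm_cases hy with h | h | h | h
    · rw [h, h0]
    · exact c32 y h
    · rw [q48 y _ h n0r, hc0]
    · exact c64 y h
  obtain ⟨y, z, hyz, hy⟩ := short v
  have hvy : v = y + (z + z) := by rw [← hyz]; abel
  have hmod : ((sqNorm v.1 / 16 : ℤ) : ZMod 2) = ((sqNorm y.1 / 16 : ℤ) : ZMod 2) := by
    rw [ZMod.intCast_eq_intCast_iff_dvd_sub]
    have h3 := @norm_shift y z
    rw [← hvy] at h3
    have h4 := norm_dvd y.2
    have h5 := norm_dvd v.2
    push_cast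
    omega
  rw [hmod, hvy, h2]
  rcases norm_cases hy with h | h | h | h
  · rw [h, h0]
    have : sqNorm (0 : leechLattice).1 = 0 := norm_zero
    rw [this]; rfl
  · rw [c32 y h, h]; decide
  · rw [q48 y _ h n0r, hβ, h]; decide
  · rw [c64 y h, h]; decide

theorem bil_eq (q : leechLattice → ZMod 2) (b : leechLattice → leechLattice → ZMod 2)
    (hqb : ∀ v w, q (v + w) = q v + q w + b v w)
    (hq : ∀ v : leechLattice, q v = ((sqNorm v.1 / 16 : ℤ) : ZMod 2)) (v w : leechLattice) :
    b v w = ((dotInt v.1 w.1 / 8 : ℤ) : ZMod 2) := by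
  have h1 := hqb v w
  rw [hq, hq, hq, coe_add', norm_add] at h1
  obtain ⟨a, ha⟩ := norm_dvd v.2
  obtain ⟨c, hc⟩ := norm_dvd w.2
  obtain ⟨d, hd⟩ := dot_dvd v.2 w.2
  rw [ha, hc, hd] at h1
  rw [hd]
  have e1 : (16 * a + 16 * c + 2 * (8 * d)) / 16 = a + c + d := by omega
  have e2 : (16 * a) / 16 = a := by omega
  have e3 : (16 * c) / 16 = c := by omega
  have e4 : (8 * d) / 8 = d := by omega
  rw [e4]
  rw [e1, e2, e3] at h1
  push_cast at h1
  have h3 : (a : ZMod 2) + c + d = a + c + b v w := h1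
  exact (add_left_cancel h3).symm

end CfsgL.Mon
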