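import Cfsg.Agent.L.Mon.Fin2
import Cfsg.Agent.L.Golay.Simple3
/-!
Groups of Monster type: the stabilizer of a conjugate of `z` in `Q`.
-/
set_option autoImplicit false
set_option maxHeartbeats 400000
namespace CfsgL.Mon
open Finset Cfsg CfsgL.Leech CfsgL.Golay CfsgL.GU CfsgL.Lat CfsgL.ExtraTwo
open scoped Pointwise

theorem neg_apply' (v : leechLattice) (i : GolayPt) : (-v).1 i = - v.1 i := rfl

/-- the class of a frame vector modulo 2 -/
theorem frame {y : leechLattice} (hn : sqNorm y.1 = 64) (hy : ∃ a, y = e8 none + (a + a)) :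
    ∃ j, y = e8 j ∨ y = - e8 j := by
  obtain ⟨a, ha⟩ := hy
  by_cases h1 : y = e8 none
  · exact ⟨none, Or.inl h1⟩
  by_cases h2 : y = - e8 none
  · exact ⟨none, Or.inr h2⟩
  have hb1 : bb y y = 8 := by have := bb_self y; omega
  have hb2 : bb (e8 none) (e8 none) = 8 := by have := bb_self (e8 none); rw [norm_e8] at this; omega
  obtain ⟨-, -, h3⟩ := rl.same_class (x := y) (y := e8 none) (z := a) (by rw [ha]; abel)
    (le_of_eq hb1) (le_of_eq hb2) h1 h2
  have h4 := eight_bb y (e8 none)
  rw [h3, dot_e8] at h4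
  have hy0 : y.1 none = 0 := by omega
  have ha0 : a.1 none = -4 := by
    have h5 : y.1 none = (e8 none).1 none + (a.1 none + a.1 none) := by rw [ha]; rfl
    rw [hy0, e8_same] at h5
    omega
  have hna : sqNorm a.1 = 32 := by
    have h5 : sqNorm (a + a).1 = sqNorm (y - e8 none).1 := by rw [ha]; congr 2; abel
    have h6 : sqNorm (a + a).1 = 4 * sqNorm a.1 := by
      rw [coe_add', norm_add, ← sqNorm_eq_dot]; ring
    have h7 : sqNorm (y - e8 none).1 = 128 := by
      rw [coe_sub', norm_sub, hn, norm_e8, dot_e8, hy0]; norm_num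
    omega
  obtain ⟨q, t, hq, ht, hv⟩ := shape4 (x := (-a).1) (-a).2 (by
    have : sqNorm (-a).1 = sqNorm a.1 := by
      unfold sqNorm
      apply Finset.sum_congr rfl
      intro i _
      rw [neg_apply']; ring
    rw [this, hna]) (p := none) (by rw [neg_apply', ha0]; norm_num)
  have hak : ∀ k, a.1 k = - (v2 none q 4 t k) := by
    intro k
    have := congrFun hv k
    rw [neg_apply'] at this
    omega
  have hyk : ∀ k, y.1 k = if k = q then -2 * t else 0 := by
    intro k
    have h5 : y.1 k = (e8 none).1 k + (a.1 k + a.1 k) := by rw [ha]; rfl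
    rw [h5, hak, v2_apply hq]
    by_cases hk : k = none
    · subst hk
      rw [e8_same, if_pos rfl, if_neg hq]; norm_num
    · rw [e8_ne hk, if_neg hk]
      split_ifs <;> ring
  refine ⟨q, ?_⟩
  rcases ht with rfl | rfl
  · right
    apply Subtype.ext
    funext k
    rw [hyk, neg_apply']
    by_cases hk : k = q
    · rw [if_pos hk, hk, e8_same]; norm_num
    · rw [if_neg hk, e8_ne hk]; norm_num
  · left
    apply Subtype.ext
    funext k
    rw [hyk]
    by_cases hk : k = q
    · rw [if_pos hk, hk, e8_same]; norm_num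
    · rw [if_neg hk, e8_ne hk]

/-- the stabilizer of the class of `e8 none` -/
def NN : Subgroup Co0 where
  carrier := {g | ∃ a, g • e8 none = e8 none + (a + a)}
  one_mem' := ⟨0, by rw [one_smul]; simp⟩
  mul_mem' := by
    rintro g k ⟨a, ha⟩ ⟨b, hb⟩
    refine ⟨a + g • b, ?_⟩
    rw [mul_smul, hb, co_add, co_add, ha]; abel
  inv_mem' := by
    rintro g ⟨a, ha⟩
    refine ⟨-(g⁻¹ • a), ?_⟩
    have h1 : e8 none = g⁻¹ • (e8 none + (a + a)) := by rw [← ha, inv_smul_smul]
    rw [co_add, co_add] at h1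
    have h2 : g⁻¹ • e8 none = e8 none - (g⁻¹ • a + g⁻¹ • a) := by
      nth_rewrite 2 [h1]; abel
    rw [h2]; abel

theorem mem_NN {g : Co0} : g ∈ NN ↔ ∃ (σ : M24) (c : Sup), g = mono σ c := by
  constructor
  · rintro ⟨a, ha⟩
    apply mono_of
    rintro v ⟨i, s, hs, hv⟩
    have hmain : ∀ i, ∃ j, g • e8 i = e8 j ∨ g • e8 i = - e8 j := by
      intro i
      apply frame
      · rw [co_norm, norm_e8]
      · obtain ⟨w, hw⟩ := e8_congr i none
        refine ⟨a + g • w, ?_⟩
        rw [hw, co_add, co_add, ha]; abel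
    obtain ⟨j, hj⟩ := hmain i
    have hvi : v = e8 i ∨ v = - e8 i := by
      rcases hs with rfl | rfl
      · left; exact Subtype.ext hv
      · right; apply Subtype.ext; rw [hv]
        funext k
        rw [neg_apply']
        by_cases hk : k = i
        · rw [hk, e8_same, Pi.single_eq_same]
        · rw [e8_ne hk, Pi.single_eq_of_ne hk]; norm_num
    have hres : g • v = e8 j ∨ g • v = - e8 j := by
      rcases hvi with rfl | rfl
      · exact hj
      · rw [co_neg]
        rcases hj with h | h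
        · right; rw [h]
        · left; rw [h, neg_neg]
    rcases hres with h | h
    · rw [h]; exact e8_mem_std j
    · rw [h]
      refine ⟨j, -8, Or.inr rfl, ?_⟩
      funext k
      rw [neg_apply']
      by_cases hk : k = j
      · rw [hk, e8_same, Pi.single_eq_same]
      · rw [e8_ne hk, Pi.single_eq_of_ne hk]; norm_num
  · rintro ⟨σ, c, rfl⟩
    exact Good4.mono_ok σ c

theorem card_NN : Nat.card NN = 4096 * 244823040 := by
  rw [← card_Sup, ← card_M24, ← Nat.card_prod]
  apply Nat.card_congr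
  symm
  refine Equiv.ofBijective (fun p : Sup × M24 => (⟨mono p.2 p.1, mem_NN.2 ⟨_, _, rfl⟩⟩ : NN)) ⟨?_, ?_⟩
  · rintro ⟨c, σ⟩ ⟨d, τ⟩ h
    obtain ⟨h1, h2⟩ := mono_inj (congrArg Subtype.val h)
    exact Prod.ext h2 h1
  · rintro ⟨g, hg⟩
    obtain ⟨σ, c, h⟩ := mem_NN.1 hg
    exact ⟨(c, σ), Subtype.ext h.symm⟩

theorem center_le_NN : Subgroup.center Co0 ≤ NN := by
  intro g hg
  rcases center_iff.1 hg with rfl | rfl
  · exact NN.one_mem
  · obtain ⟨w, hw⟩ := e8_neg none
    exact ⟨w, by rw [negCo_smul, hw]⟩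

theorem card_NNbar : Nat.card (NN.map (QuotientGroup.mk' (Subgroup.center Co0))) = 2048 * 244823040 := by
  have h1 := Subgroup.card_eq_card_quotient_mul_card_subgroup ((Subgroup.center Co0).subgroupOf NN)
  have h2 : Nat.card ((Subgroup.center Co0).subgroupOf NN) = 2 := by
    rw [Nat.card_congr (Subgroup.subgroupOfEquivOfLe center_le_NN).toEquiv, card_center]
  have h3 : Nat.card (NN ⧸ (Subgroup.center Co0).subgroupOf NN) =
      Nat.card (NN.map (QuotientGroup.mk' (Subgroup.center Co0))) := by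
    let f : NN →* Co0 ⧸ Subgroup.center Co0 := (QuotientGroup.mk' (Subgroup.center Co0)).comp NN.subtype
    have hk : f.ker = (Subgroup.center Co0).subgroupOf NN := by
      ext x
      rw [MonoidHom.mem_ker, Subgroup.mem_subgroupOf]
      exact QuotientGroup.eq_one_iff _
    have hr : f.range = NN.map (QuotientGroup.mk' (Subgroup.center Co0)) := by
      rw [MonoidHom.range_comp, Subgroup.range_subtype]
    rw [← hk, ← hr]
    exact Nat.card_congr (QuotientGroup.quotientKerEquivRange f).toEquiv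
  rw [card_NN, h2, h3] at h1
  omega

/-- permutations as a homomorphism -/
def pmHom : M24 →* Co0 where
  toFun := pm
  map_one' := by
    apply co_ext
    intro v
    rw [one_smul]
    apply Subtype.ext
    funext i
    have := pm_at 1 v i
    exact this
  map_mul' σ τ := by
    apply co_ext
    intro v
    rw [mul_smul]
    apply Subtype.ext
    funext k
    obtain ⟨i, rfl⟩ := (σ * τ).1.surjective k
    rw [pm_at]
    have h1 : (σ * τ).1 i = σ.1 (τ.1 i) := rfl
    rw [h1, pm_at, pm_at]

theorem pm_center {σ : M24} (h : pm σ ∈ Subgroup.center Co0) : σ = 1 := by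
  rcases center_iff.1 h with h1 | h1
  · have h2 : pm σ = pm 1 := by
      rw [h1]; exact (map_one pmHom).symm
    exact (mono_inj h2).1
  · exfalso
    rw [← mono_univ] at h1
    have h2 := (mono_inj h1).2
    have h3 : (∅ : Finset GolayPt) = Finset.univ := congrArg Subtype.val h2
    have h4 : (none : GolayPt) ∈ (∅ : Finset GolayPt) := by rw [h3]; exact Finset.mem_univ _
    exact absurd h4 (Finset.notMem_empty _)

section
variable {G : Type*} [Group G] [Finite G] {z : G}
  {Q : Subgroup (Subgroup.centralizer ({z} : Set G))} [hn : Q.Normal]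

/-- the map `x ↦ g x g⁻¹ Q` on the centralizer of `t = g⁻¹ z g` -/
def theta {g : G} {t : Q} (ht : g⁻¹ * z * g = ((t : Subgroup.centralizer ({z} : Set G)) : G)) :
    Subgroup.centralizer ({t} : Set Q) →* Subgroup.centralizer ({z} : Set G) where
  toFun x := ⟨g * (((x : Q) : Subgroup.centralizer ({z} : Set G)) : G) * g⁻¹, by
    rw [Subgroup.mem_centralizer_singleton_iff]
    have h1 : (x : Q) * t = t * x := Subgroup.mem_centralizer_singleton_iff.1 x.2
    have h2 : (((x : Q) : Subgroup.centralizer ({z} : Set G)) : G) * ((t : Subgroup.centralizer ({z} : Set G)) : G) =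
        ((t : Subgroup.centralizer ({z} : Set G)) : G) * (((x : Q) : Subgroup.centralizer ({z} : Set G)) : G) :=
      congrArg (fun t : Q => ((t : Subgroup.centralizer ({z} : Set G)) : G)) h1
    rw [← ht] at h2
    calc g * (((x : Q) : Subgroup.centralizer ({z} : Set G)) : G) * g⁻¹ * z =
        g * ((((x : Q) : Subgroup.centralizer ({z} : Set G)) : G) * (g⁻¹ * z * g)) * g⁻¹ := by group
      _ = g * (g⁻¹ * z * g * (((x : Q) : Subgroup.centralizer ({z} : Set G)) : G)) * g⁻¹ := by rw [h2]
      _ = z * (g * (((x : Q) : Subgroup.centralizer ({z} : Set G)) : G) * g⁻¹) := by group⟩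
  map_one' := by
    apply Subtype.ext
    change g * (1 : G) * g⁻¹ = 1
    group
  map_mul' a b := by
    apply Subtype.ext
    change g * ((((a : Q) : Subgroup.centralizer ({z} : Set G)) : G) * (((b : Q) : Subgroup.centralizer ({z} : Set G)) : G)) * g⁻¹ =
      g * (((a : Q) : Subgroup.centralizer ({z} : Set G)) : G) * g⁻¹ * (g * (((b : Q) : Subgroup.centralizer ({z} : Set G)) : G) * g⁻¹)
    group

variable (hset : IsExtraspecialCentralizerSetting z Q 12)
  {e : (Subgroup.centralizer ({z} : Set G)) ⧸ Q ≃* Spor.Co1} {ψ : leechLattice → Q ⧸ Subgroup.center Q}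
  (hψ : IsLeechModTwoIso Q e ψ)
include hset hψ

theorem theta_card {g : G} {t : Q} (ht : g⁻¹ * z * g = ((t : Subgroup.centralizer ({z} : Set G)) : G))
    (hne : ((t : Subgroup.centralizer ({z} : Set G)) : G) ≠ z) :
    Nat.card ((QuotientGroup.mk' Q).comp (theta ht)).range = 2 ^ 11 := by
  have h := lm_of hset hψ
  have ht' : g⁻¹ * z * (g⁻¹)⁻¹ = ((t : Subgroup.centralizer ({z} : Set G)) : G) := by rw [inv_inv]; exact ht
  have hg' : g⁻¹ * z * (g⁻¹)⁻¹ ≠ z := by rw [ht']; exact hne
  obtain ⟨-, hD⟩ := DD_facts hset hψ ht' hne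
  obtain ⟨v, hv, hvt⟩ := type4 hset hψ ht' hne
  have htz := h.not_cen hvt (Or.inr hv)
  have htD : t ∈ DD Q g⁻¹ := mem_DD.2 ⟨zz hset, ht'⟩
  have hle : DD Q g⁻¹ ≤ Subgroup.centralizer ({t} : Set Q) := by
    intro x hx
    rw [Subgroup.mem_centralizer_singleton_iff]
    have h1 := DD_sq hset hψ hg' hx
    have h2 := DD_sq hset hψ hg' htD
    have h3 := DD_sq hset hψ hg' ((DD Q g⁻¹).mul_mem hx htD)
    calc x * t = (x * t)⁻¹ := eq_inv_of_mul_eq_one_right h3
      _ = t⁻¹ * x⁻¹ := mul_inv_rev _ _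
      _ = t * x := by rw [← eq_inv_of_mul_eq_one_right h1, ← eq_inv_of_mul_eq_one_right h2]
  have hker : Nat.card ((QuotientGroup.mk' Q).comp (theta ht)).ker = 2 ^ 13 := by
    rw [← hD]
    have h1 : ((QuotientGroup.mk' Q).comp (theta ht)).ker = (DD Q g⁻¹).subgroupOf (Subgroup.centralizer ({t} : Set Q)) := by
      ext x
      rw [MonoidHom.mem_ker, Subgroup.mem_subgroupOf, mem_DD]
      change (QuotientGroup.mk (theta ht x) : (Subgroup.centralizer ({z} : Set G)) ⧸ Q) = 1 ↔ _
      rw [QuotientGroup.eq_one_iff]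
      constructor
      · intro h2
        refine ⟨⟨_, h2⟩, ?_⟩
        change g⁻¹ * (g * (((x : Q) : Subgroup.centralizer ({z} : Set G)) : G) * g⁻¹) * (g⁻¹)⁻¹ = _
        group
      · rintro ⟨y, hy⟩
        have : theta ht x = y := by
          apply Subtype.ext
          change g * (((x : Q) : Subgroup.centralizer ({z} : Set G)) : G) * g⁻¹ = _
          rw [← hy]; group
        rw [this]; exact y.2
    rw [h1]
    exact Nat.card_congr (Subgroup.subgroupOfEquivOfLe hle).toEquiv
  have h24 : Nat.card (Subgroup.centralizer ({t} : Set Q)) = 2 ^ 24 := by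
    have h1 := Subgroup.card_mul_index (Subgroup.centralizer ({t} : Set Q))
    rw [cent_index h.dat (h.noncentral htz), hset.2.2.2.1] at h1
    have h2 : (2 : ℕ) ^ (2 * 12 + 1) = 2 ^ 24 * 2 := by norm_num
    rw [h2] at h1
    exact Nat.eq_of_mul_eq_mul_right (by norm_num) h1
  have h1 := Subgroup.card_eq_card_quotient_mul_card_subgroup ((QuotientGroup.mk' Q).comp (theta ht)).ker
  rw [h24, hker, Nat.card_congr (QuotientGroup.quotientKerEquivRange _).toEquiv] at h1
  have h2 : (2 : ℕ) ^ 24 = 2 ^ 11 * 2 ^ 13 := by norm_num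
  rw [h2] at h1
  exact (Nat.eq_of_mul_eq_mul_right (by norm_num) h1).symm

end

end CfsgL.Mon
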